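import Mathlib

/-!
# Gauss' formula `4 Φ_r = A² + r B²` for primes `r ≡ 3 (mod 4)`
-/

set_option autoImplicit false

open Polynomial

namespace Cfsg.Agent.Lib.Amitsur

section

variable {r : ℕ} [hr : Fact r.Prime] {L : Type*} [Field L]

/-- Product of the linear factors over a class of the quadratic character. -/
noncomputable def quadFactor (ψ : AddChar (ZMod r) L) (e : ℤ) : L[X] :=
  ∏ a ∈ Finset.univ.filter (fun a : ZMod r => quadraticChar (ZMod r) a = e), (X - C (ψ a))

theorem prod_all {ξ : L} (hξ : IsPrimitiveRoot ξ r) :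
    ∏ a : ZMod r, (X - C (AddChar.zmodChar r hξ.pow_eq_one a)) = X ^ r - 1 := by
  have h := X_pow_sub_C_eq_prod hξ hr.out.pos (one_pow r)
  rw [C_1] at h
  rw [h]
  refine Finset.prod_nbij' ZMod.val (fun n => (n : ZMod r)) ?_ ?_ ?_ ?_ ?_
  · intro a _
    exact Finset.mem_range.mpr (ZMod.val_lt a)
  · intro n _
    exact Finset.mem_univ _
  · intro a _
    simp
  · intro n hn
    exact ZMod.val_cast_of_lt (Finset.mem_range.mp hn)
  · intro a _
    rw [AddChar.zmodChar_apply, mul_one]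

theorem quadFactor_mul {ξ : L} (hξ : IsPrimitiveRoot ξ r) :
    quadFactor (AddChar.zmodChar r hξ.pow_eq_one) 1 * quadFactor (AddChar.zmodChar r hξ.pow_eq_one) (-1)
      = ∑ j ∈ Finset.range r, (X : L[X]) ^ j := by
  classical
  set ψ := AddChar.zmodChar r hξ.pow_eq_one with hψ
  have h1 : (X - C 1) * (quadFactor ψ 1 * quadFactor ψ (-1)) = X ^ r - 1 := by
    rw [← prod_all hξ, ← hψ]
    rw [← Finset.prod_filter_mul_prod_filter_not Finset.univ (fun a : ZMod r => quadraticChar (ZMod r) a = 1)]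
    rw [← Finset.prod_filter_mul_prod_filter_not (Finset.univ.filter fun a : ZMod r => ¬ quadraticChar (ZMod r) a = 1)
      (fun a : ZMod r => quadraticChar (ZMod r) a = -1)]
    have e1 : (Finset.univ.filter fun a : ZMod r => ¬ quadraticChar (ZMod r) a = 1).filter
        (fun a : ZMod r => quadraticChar (ZMod r) a = -1)
        = Finset.univ.filter (fun a : ZMod r => quadraticChar (ZMod r) a = -1) := by
      ext a
      simp only [Finset.mem_filter, Finset.mem_univ, true_and]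
      constructor
      · exact fun h => h.2
      · intro h
        refine ⟨?_, h⟩
        rw [h]
        norm_num
    have e2 : (Finset.univ.filter fun a : ZMod r => ¬ quadraticChar (ZMod r) a = 1).filter
        (fun a : ZMod r => ¬ quadraticChar (ZMod r) a = -1) = {0} := by
      ext a
      simp only [Finset.mem_filter, Finset.mem_univ, true_and, Finset.mem_singleton]
      constructor
      · rintro ⟨h1, h2⟩
        by_contra h0
        rcases quadraticChar_dichotomy h0 with h | h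
        · exact h1 h
        · exact h2 h
      · rintro rfl
        simp
    rw [e1, e2]
    rw [Finset.prod_singleton, AddChar.map_zero_eq_one]
    simp only [quadFactor]
    ring
  have h2 : (X - C (1 : L)) * ∑ j ∈ Finset.range r, (X : L[X]) ^ j = X ^ r - 1 := by
    rw [C_1, mul_comm]
    exact geom_sum_mul X r
  have h3 : (X - C (1 : L)) ≠ 0 := X_sub_C_ne_zero 1
  exact mul_left_cancel₀ h3 (h1.trans h2.symm)

theorem psi_map {ξ : L} (hξ : IsPrimitiveRoot ξ r) (σ : L →+* L) (b : ZMod r)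
    (hσ : σ ξ = ξ ^ b.val) (a : ZMod r) :
    σ (AddChar.zmodChar r hξ.pow_eq_one a) = AddChar.zmodChar r hξ.pow_eq_one (b * a) := by
  have h1 : b * a = ((b.val * a.val : ℕ) : ZMod r) := by
    push_cast
    simp
  rw [h1, AddChar.zmodChar_apply', AddChar.zmodChar_apply, map_pow, hσ, pow_mul]

private theorem chi_mul_inv {b : ZMod r} (hb : b ≠ 0) (c : ZMod r) :
    quadraticChar (ZMod r) (b⁻¹ * c) = quadraticChar (ZMod r) b * quadraticChar (ZMod r) c := by
  rw [map_mul]
  congr 1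
  have h1 : quadraticChar (ZMod r) b⁻¹ * quadraticChar (ZMod r) b = 1 := by
    rw [← map_mul, inv_mul_cancel₀ hb, map_one]
  rcases quadraticChar_dichotomy hb with h | h
  · rw [h, mul_one] at h1
    rw [h, h1]
  · rw [h] at h1 ⊢
    omega

theorem map_quadFactor {ξ : L} (hξ : IsPrimitiveRoot ξ r) (σ : L →+* L) (b : ZMod r) (hb : b ≠ 0)
    (hσ : σ ξ = ξ ^ b.val) (e : ℤ) :
    (quadFactor (AddChar.zmodChar r hξ.pow_eq_one) e).map σ
      = quadFactor (AddChar.zmodChar r hξ.pow_eq_one) (quadraticChar (ZMod r) b * e) := by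
  simp only [quadFactor, Polynomial.map_prod, Polynomial.map_sub, map_X, map_C]
  refine Finset.prod_nbij' (fun a => b * a) (fun c => b⁻¹ * c) ?_ ?_ ?_ ?_ ?_
  · intro a ha
    simp only [Finset.mem_filter, Finset.mem_univ, true_and] at ha ⊢
    rw [map_mul, ha]
  · intro c hc
    simp only [Finset.mem_filter, Finset.mem_univ, true_and] at hc ⊢
    rw [chi_mul_inv hb, hc, ← mul_assoc]
    rcases quadraticChar_dichotomy hb with h | h <;> rw [h] <;> norm_num
  · intro a _
    show b⁻¹ * (b * a) = a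
    rw [← mul_assoc, inv_mul_cancel₀ hb, one_mul]
  · intro c _
    show b * (b⁻¹ * c) = c
    rw [← mul_assoc, mul_inv_cancel₀ hb, one_mul]
  · intro a _
    rw [psi_map hξ σ b hσ a]

/-- The Gauss sum of the quadratic character. -/
noncomputable def quadGauss (ψ : AddChar (ZMod r) L) : L :=
  ∑ a : ZMod r, ((quadraticChar (ZMod r) a : ℤ) : L) * ψ a

theorem map_quadGauss {ξ : L} (hξ : IsPrimitiveRoot ξ r) (σ : L →+* L) (b : ZMod r) (hb : b ≠ 0)
    (hσ : σ ξ = ξ ^ b.val) :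
    σ (quadGauss (AddChar.zmodChar r hξ.pow_eq_one))
      = ((quadraticChar (ZMod r) b : ℤ) : L) * quadGauss (AddChar.zmodChar r hξ.pow_eq_one) := by
  simp only [quadGauss, map_sum, map_mul, map_intCast, Finset.mul_sum]
  refine Finset.sum_nbij' (fun a => b * a) (fun c => b⁻¹ * c) ?_ ?_ ?_ ?_ ?_
  · intro a _
    exact Finset.mem_univ _
  · intro c _
    exact Finset.mem_univ _
  · intro a _
    show b⁻¹ * (b * a) = a
    rw [← mul_assoc, inv_mul_cancel₀ hb, one_mul]
  · intro c _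
    show b * (b⁻¹ * c) = c
    rw [← mul_assoc, mul_inv_cancel₀ hb, one_mul]
  · intro a _
    rw [psi_map hξ σ b hσ a]
    have h1 : quadraticChar (ZMod r) a = quadraticChar (ZMod r) b * quadraticChar (ZMod r) (b * a) := by
      have := chi_mul_inv hb (b * a)
      rw [← mul_assoc, inv_mul_cancel₀ hb, one_mul] at this
      exact this
    rw [h1]
    push_cast
    ring

theorem quadGauss_sq [CharZero L] {ξ : L} (hξ : IsPrimitiveRoot ξ r) (h4 : r % 4 = 3) :
    quadGauss (AddChar.zmodChar r hξ.pow_eq_one) ^ 2 = -(r : L) := by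
  have hr2 : ringChar (ZMod r) ≠ 2 := by
    rw [ZMod.ringChar_zmod_n]
    rintro rfl
    norm_num at h4
  have hinj : Function.Injective (Int.castRingHom L) := RingHom.injective_int _
  have h1 := gaussSum_sq (χ := (quadraticChar (ZMod r)).ringHomComp (Int.castRingHom L))
    ((MulChar.ringHomComp_ne_one_iff hinj).mpr (quadraticChar_ne_one hr2))
    ((quadraticChar_isQuadratic (ZMod r)).comp _)
    (AddChar.zmodChar_primitive_of_primitive_root r hξ)
  have h2 : gaussSum ((quadraticChar (ZMod r)).ringHomComp (Int.castRingHom L))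
      (AddChar.zmodChar r hξ.pow_eq_one) = quadGauss (AddChar.zmodChar r hξ.pow_eq_one) := rfl
  rw [h2] at h1
  rw [h1, MulChar.ringHomComp_apply, quadraticChar_neg_one hr2, ZMod.card]
  have : ZMod.χ₄ (r : ZMod 4) = -1 := ZMod.χ₄_nat_three_mod_four h4
  simp [this]

theorem descend [Algebra ℚ L] [IsGalois ℚ L] [FiniteDimensional ℚ L] (P : L[X])
    (hP : ∀ σ : L ≃ₐ[ℚ] L, P.map (σ : L →+* L) = P) :
    ∃ Q : ℚ[X], Q.map (algebraMap ℚ L) = P := by
  have h : P ∈ Polynomial.lifts (algebraMap ℚ L) := by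
    rw [Polynomial.lifts_iff_coeff_lifts]
    intro n
    have h1 : P.coeff n ∈ (⊥ : IntermediateField ℚ L) := by
      rw [IsGalois.mem_bot_iff_fixed]
      intro σ
      have h2 := congrArg (fun p => p.coeff n) (hP σ)
      simpa [Polynomial.coeff_map] using h2
    exact IntermediateField.mem_bot.mp h1
  rw [Polynomial.mem_lifts] at h
  exact h

end

private theorem gauss_aux {r : ℕ} [hfr : Fact r.Prime] {L : Type*} [Field L] [Algebra ℚ L] [IsGalois ℚ L]
    [FiniteDimensional ℚ L] {ξ : L} (hξ : IsPrimitiveRoot ξ r) (h4 : r % 4 = 3) :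
    ∃ U V : ℚ[X], ∑ j ∈ Finset.range r, (X : ℚ[X]) ^ j = U ^ 2 + C (r : ℚ) * V ^ 2 := by
  classical
  have hr : r.Prime := hfr.out
  haveI : CharZero L := algebraRat.charZero L
  obtain ⟨ψ, hψ⟩ : ∃ ψ, ψ = AddChar.zmodChar r hξ.pow_eq_one := ⟨_, rfl⟩
  have hbex : ∀ σ : L ≃ₐ[ℚ] L, ∃ b : ZMod r, b ≠ 0 ∧ (σ : L →+* L) ξ = ξ ^ b.val := by
    intro σ
    have h1 : IsPrimitiveRoot ((σ : L →+* L) ξ) r := hξ.map_of_injective (RingHom.injective _)
    obtain ⟨i, hi, hi2⟩ := hξ.eq_pow_of_pow_eq_one h1.pow_eq_one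
    have hv : ((i : ZMod r)).val = i := ZMod.val_cast_of_lt hi
    refine ⟨(i : ZMod r), ?_, by rw [hv, hi2]⟩
    intro h0
    rw [h0, ZMod.val_zero] at hv
    rw [← hv, pow_zero] at hi2
    exact h1.ne_one hr.one_lt hi2.symm
  obtain ⟨g, hg⟩ : ∃ g, g = quadFactor ψ 1 := ⟨_, rfl⟩
  obtain ⟨g', hg'⟩ : ∃ g', g' = quadFactor ψ (-1) := ⟨_, rfl⟩
  obtain ⟨G, hG⟩ : ∃ G, G = quadGauss ψ := ⟨_, rfl⟩
  have hgg : g * g' = ∑ j ∈ Finset.range r, (X : L[X]) ^ j := by
    rw [hg, hg', hψ]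
    exact quadFactor_mul hξ
  have hG2 : G ^ 2 = -(r : L) := by
    rw [hG, hψ]
    exact quadGauss_sq hξ h4
  have hact : ∀ σ : L ≃ₐ[ℚ] L, (g.map (σ : L →+* L) = g ∧ g'.map (σ : L →+* L) = g' ∧ (σ : L →+* L) G = G) ∨
      (g.map (σ : L →+* L) = g' ∧ g'.map (σ : L →+* L) = g ∧ (σ : L →+* L) G = -G) := by
    intro σ
    obtain ⟨b, hb, hσ⟩ := hbex σ
    have h1 := map_quadFactor hξ (σ : L →+* L) b hb hσ 1
    have h2 := map_quadFactor hξ (σ : L →+* L) b hb hσ (-1)
    have h3 := map_quadGauss hξ (σ : L →+* L) b hb hσ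
    rw [← hψ, ← hg] at h1
    rw [← hψ, ← hg'] at h2
    rw [← hψ, ← hG] at h3
    rcases quadraticChar_dichotomy hb with h | h
    · left
      rw [h] at h1 h2 h3
      norm_num at h1 h2 h3
      rw [← hg] at h1
      rw [← hg'] at h2
      exact ⟨h1, h2, h3⟩
    · right
      rw [h] at h1 h2 h3
      norm_num at h1 h2 h3
      rw [← hg'] at h1
      rw [← hg] at h2
      exact ⟨h1, h2, by simpa using h3⟩
  obtain ⟨U₁, hU₁⟩ := descend (g + g') (by
    intro σ
    rw [Polynomial.map_add]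
    rcases hact σ with ⟨h1, h2, -⟩ | ⟨h1, h2, -⟩ <;> rw [h1, h2]
    rw [add_comm])
  obtain ⟨V₁, hV₁⟩ := descend ((g - g') * C G) (by
    intro σ
    rw [Polynomial.map_mul, Polynomial.map_sub, map_C]
    rcases hact σ with ⟨h1, h2, h3⟩ | ⟨h1, h2, h3⟩ <;> rw [h1, h2, h3]
    rw [C_neg]
    ring)
  refine ⟨C (1 / 2) * U₁, C (1 / (2 * (r : ℚ))) * V₁, ?_⟩
  apply Polynomial.map_injective (algebraMap ℚ L) (algebraMap ℚ L).injective
  simp only [Polynomial.map_sum, Polynomial.map_pow, map_X, Polynomial.map_add, Polynomial.map_mul, map_C,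
    hU₁, hV₁]
  rw [← hgg]
  have hrL : (r : L) ≠ 0 := by
    exact_mod_cast hr.ne_zero
  have e1 : (C ((algebraMap ℚ L) (1 / 2)) : L[X]) ^ 2 = C (1 / 4) := by
    rw [← C_pow]
    congr 1
    simp only [map_div₀, map_one, map_ofNat]
    norm_num
  have e2 : (C ((algebraMap ℚ L) (r : ℚ)) : L[X]) * (C ((algebraMap ℚ L) (1 / (2 * (r : ℚ))))) ^ 2 * (C G) ^ 2
      = C (-1 / 4) := by
    rw [← C_pow, ← C_pow, ← C_mul, ← C_mul, hG2]
    congr 1
    simp only [map_div₀, map_one, map_mul, map_ofNat, map_natCast]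
    field_simp
    ring
  have e3 : (C (1 / 4 : L) : L[X]) * 4 = 1 := by
    have : (4 : L[X]) = C 4 := (map_ofNat (C : L →+* L[X]) 4).symm
    rw [this, ← C_mul]
    norm_num
  have e4 : (C (-1 / 4 : L) : L[X]) = - C (1 / 4) := by
    rw [← C_neg]
    congr 1
    ring
  calc g * g' = (C (1 / 4 : L) * 4) * (g * g') := by rw [e3, one_mul]
    _ = C (1 / 4 : L) * (g + g') ^ 2 + (- C (1 / 4 : L)) * (g - g') ^ 2 := by ring
    _ = _ := by
      have : (C ((algebraMap ℚ L) (1 / 2)) * (g + g')) ^ 2 +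
          C ((algebraMap ℚ L) (r : ℚ)) * (C ((algebraMap ℚ L) (1 / (2 * (r : ℚ)))) * ((g - g') * C G)) ^ 2
          = (C ((algebraMap ℚ L) (1 / 2))) ^ 2 * (g + g') ^ 2 +
            ((C ((algebraMap ℚ L) (r : ℚ)) : L[X]) * (C ((algebraMap ℚ L) (1 / (2 * (r : ℚ))))) ^ 2 * (C G) ^ 2)
              * (g - g') ^ 2 := by
        ring
      rw [this, e1, e2, e4]

set_option backward.isDefEq.respectTransparency false in
/-- **Gauss' formula**: for a prime `r ≡ 3 (mod 4)` the polynomial `1 + X + ⋯ + X^(r-1)`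
has the form `U² + r V²` over `ℚ`. -/
theorem gauss_poly {r : ℕ} (hr : r.Prime) (h4 : r % 4 = 3) :
    ∃ U V : ℚ[X], ∑ j ∈ Finset.range r, (X : ℚ[X]) ^ j = U ^ 2 + C (r : ℚ) * V ^ 2 := by
  haveI : Fact r.Prime := ⟨hr⟩
  haveI : NeZero r := ⟨hr.ne_zero⟩
  haveI : IsGalois ℚ (CyclotomicField r ℚ) := IsCyclotomicExtension.isGalois {r} ℚ (CyclotomicField r ℚ)
  haveI : FiniteDimensional ℚ (CyclotomicField r ℚ) := IsCyclotomicExtension.finiteDimensional {r} ℚ _
  exact gauss_aux (IsCyclotomicExtension.zeta_spec r ℚ (CyclotomicField r ℚ)) h4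

end Cfsg.Agent.Lib.Amitsur
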