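import Mathlib

/-!
# Elementary number theory for Amitsur's theorem
-/

set_option autoImplicit false

namespace Cfsg.Agent.Lib.Amitsur

/-- A prime in the residue class `7` modulo `20` and `-1` modulo `q`. -/
theorem exists_prime_aux (q : ℕ) (hq : q.Coprime 20) (hq0 : 0 < q) :
    ∃ r : ℕ, r.Prime ∧ r % 20 = 7 ∧ q ∣ r + 1 := by
  -- the residue class
  obtain ⟨a, ha⟩ : ∃ a : ℕ, a % 20 = 7 ∧ a % q = (q - 1) % q := by
    have h := Nat.chineseRemainder hq.symm 7 (q - 1)
    exact ⟨h.1, by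
      have := h.2.1
      have h7 : 7 % 20 = 7 := rfl
      rw [Nat.ModEq] at this
      exact this, h.2.2⟩
  have hq1 : q ∣ a + 1 := by
    have h1 : (a + 1) % q = 0 := by
      rw [Nat.add_mod, ha.2]
      rcases Nat.lt_or_ge 1 q with h | h
      · rw [Nat.mod_eq_of_lt (Nat.sub_lt hq0 one_pos), Nat.mod_eq_of_lt h,
          show q - 1 + 1 = q by omega, Nat.mod_self]
      · have : q = 1 := by omega
        subst this
        simp [Nat.mod_one]
    exact Nat.dvd_of_mod_eq_zero h1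
  have hcop : a.Coprime (20 * q) := by
    refine Nat.Coprime.mul_right ?_ ?_
    · have h : Nat.gcd a 20 = Nat.gcd 20 7 := by
        rw [Nat.gcd_comm, Nat.gcd_rec, ha.1]
        rw [Nat.gcd_comm]
      rw [Nat.Coprime, h]
      rfl
    · have h1 : Nat.Coprime (a + 1) a := by simp
      exact (Nat.Coprime.coprime_dvd_left hq1 h1).symm
  haveI : NeZero (20 * q) := ⟨by positivity⟩
  have hu : IsUnit (a : ZMod (20 * q)) := (ZMod.isUnit_iff_coprime a _).mpr hcop
  obtain ⟨r, -, hr, hra⟩ := Nat.forall_exists_prime_gt_and_eq_mod hu 0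
  have hmod : r ≡ a [MOD 20 * q] := (ZMod.natCast_eq_natCast_iff _ _ _).mp hra
  refine ⟨r, hr, ?_, ?_⟩
  · have := hmod.of_mul_right q
    rw [Nat.ModEq, ha.1] at this
    exact this
  · have h1 : r ≡ a [MOD q] := hmod.of_mul_left 20
    have h2 : r + 1 ≡ a + 1 [MOD q] := h1.add_right 1
    exact (h2.dvd_iff (dvd_refl q)).mpr hq1

private theorem two_not_sq : ∀ c : ZMod 5, (2 : ZMod 5) ≠ c * c := by decide

/-- `-5` is a square modulo primes `≡ 7 (mod 20)`. -/
theorem exists_sq_neg_five {r : ℕ} (hr : r.Prime) (h20 : r % 20 = 7) :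
    ∃ c : ZMod r, c * c = -5 := by
  haveI : Fact r.Prime := ⟨hr⟩
  have hr2 : r ≠ 2 := by
    rintro rfl
    norm_num at h20
  have hr5 : r ≠ 5 := by
    rintro rfl
    norm_num at h20
  haveI : Fact (Nat.Prime 5) := ⟨by norm_num⟩
  have h4 : r % 4 = 3 := by omega
  have hm5 : r % 5 = 2 := by omega
  have l1 : legendreSym r (-1) = -1 := by
    rw [legendreSym.at_neg_one hr2, ZMod.χ₄_nat_three_mod_four h4]
  have l2 : legendreSym r 5 = -1 := by
    have h1 : legendreSym r ((5 : ℕ) : ℤ) = legendreSym 5 (r : ℤ) :=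
      legendreSym.quadratic_reciprocity_one_mod_four (p := 5) (q := r) (by norm_num) hr2
    have h2 : legendreSym 5 (r : ℤ) = legendreSym 5 2 := by
      rw [legendreSym.mod 5 (r : ℤ)]
      have : (r : ℤ) % ((5 : ℕ) : ℤ) = 2 := by omega
      rw [this]
    have h3 : legendreSym 5 2 = -1 := by
      rw [legendreSym.eq_neg_one_iff]
      rintro ⟨c, hc⟩
      exact two_not_sq c (by simpa using hc)
    simpa [h2, h3] using h1
  have l3 : legendreSym r (-5) = 1 := by
    have : (-5 : ℤ) = (-1) * 5 := by norm_num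
    rw [this, legendreSym.mul, l1, l2]
    norm_num
  have hne : (((-5 : ℤ)) : ZMod r) ≠ 0 := by
    intro h0
    have h1 : ((5 : ℕ) : ZMod r) = 0 := by
      have : ((-5 : ℤ) : ZMod r) = -((5 : ℕ) : ZMod r) := by push_cast; rfl
      rw [this] at h0
      exact neg_eq_zero.mp h0
    rw [ZMod.natCast_eq_zero_iff] at h1
    exact hr5 ((Nat.prime_dvd_prime_iff_eq hr (by norm_num)).mp h1)
  obtain ⟨c, hc⟩ := (legendreSym.eq_one_iff r hne).mp l3
  refine ⟨c, ?_⟩
  rw [← hc]
  push_cast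
  rfl

private theorem sq_mod_four (x y : ℤ) : ((x * x + 5 * (y * y) : ℤ) : ZMod 4) ≠ 3 := by
  push_cast
  generalize (x : ZMod 4) = a
  generalize (y : ZMod 4) = b
  revert a b
  decide

private theorem dec3 : ∀ a b : ZMod 3, a * a + 5 * (b * b) = 0 → a = b ∨ a = -b := by decide

private theorem dec4 : ∀ a b : ZMod 4, a * a + 5 * (b * b) = 0 → (a = 0 ∨ a = 2) ∧ (b = 0 ∨ b = 2) := by
  decide

private theorem case3 {x y : ℤ} {r : ℤ} (ht : x * x + 5 * (y * y) = r * 3) :
    ∃ n m : ℤ, n * n + 5 * (m * m) = 2 * r := by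
  have h3 : ((x * x + 5 * (y * y) : ℤ) : ZMod 3) = 0 := by
    rw [ht]
    push_cast
    have : (3 : ZMod 3) = 0 := rfl
    rw [this]
    ring
  have h6 := dec3 (x : ZMod 3) (y : ZMod 3) (by push_cast at h3; exact h3)
  rcases h6 with h6 | h6
  · have h7 : ((x - y : ℤ) : ZMod 3) = 0 := by
      push_cast
      rw [h6]
      ring
    obtain ⟨m, hm⟩ := (ZMod.intCast_zmod_eq_zero_iff_dvd _ 3).mp h7
    refine ⟨2 * y + m, m, ?_⟩
    have hxm : x = y + 3 * m := by push_cast at hm; linarith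
    subst hxm
    nlinarith
  · have h7 : ((x + y : ℤ) : ZMod 3) = 0 := by
      push_cast
      rw [h6]
      ring
    obtain ⟨m, hm⟩ := (ZMod.intCast_zmod_eq_zero_iff_dvd _ 3).mp h7
    refine ⟨2 * y - m, m, ?_⟩
    have hxm : x = 3 * m - y := by push_cast at hm; linarith
    subst hxm
    nlinarith

private theorem case4 {x y : ℤ} {r : ℤ} (h4 : (r : ZMod 4) = 3) (ht : x * x + 5 * (y * y) = r * 4) :
    False := by
  have h3 : ((x * x + 5 * (y * y) : ℤ) : ZMod 4) = 0 := by
    rw [ht]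
    push_cast
    have : (4 : ZMod 4) = 0 := rfl
    rw [this]
    ring
  have h6 := dec4 (x : ZMod 4) (y : ZMod 4) (by push_cast at h3; exact h3)
  have even_of : ∀ u : ℤ, ((u : ZMod 4) = 0 ∨ (u : ZMod 4) = 2) → ∃ v : ℤ, u = 2 * v := by
    intro u hu
    have hu' : ((u : ℤ) : ZMod 4) * 2 = 0 := by
      rcases hu with hu | hu <;> rw [hu] <;> decide
    have h7 : ((u * 2 : ℤ) : ZMod 4) = 0 := by push_cast; exact hu'
    obtain ⟨v, hv⟩ := (ZMod.intCast_zmod_eq_zero_iff_dvd _ 4).mp h7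
    refine ⟨v, ?_⟩
    push_cast at hv
    omega
  obtain ⟨x', rfl⟩ := even_of x h6.1
  obtain ⟨y', rfl⟩ := even_of y h6.2
  apply sq_mod_four x' y'
  have h8 : x' * x' + 5 * (y' * y') = r := by nlinarith
  rw [h8]
  exact h4

private theorem case1 {x y : ℤ} {r : ℤ} (h4 : (r : ZMod 4) = 3) (ht : x * x + 5 * (y * y) = r * 1) :
    False := by
  apply sq_mod_four x y
  rw [ht, mul_one]
  exact h4

private theorem case5 {x y : ℤ} {r : ℤ} (h4 : (r : ZMod 4) = 3) (ht : x * x + 5 * (y * y) = r * 5) :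
    False := by
  apply sq_mod_four x y
  rw [ht]
  push_cast
  rw [h4]
  rfl

/-- Primes `≡ 7 (mod 20)` have twice a norm from `ℤ[√-5]`. -/
theorem exists_two_mul_norm {r : ℕ} (hr : r.Prime) (h20 : r % 20 = 7) :
    ∃ n m : ℤ, n * n + 5 * (m * m) = 2 * r := by
  classical
  haveI : Fact r.Prime := ⟨hr⟩
  obtain ⟨c, hc⟩ := exists_sq_neg_five hr h20
  have h4 : (r : ZMod 4) = 3 := by
    have h5 : r % 4 = 3 := by omega
    have : ((r % 4 : ℕ) : ZMod 4) = (r : ZMod 4) := ZMod.natCast_mod r 4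
    rw [← this, h5]
    rfl
  obtain ⟨k, hk⟩ : ∃ k, k = Nat.sqrt r := ⟨_, rfl⟩
  have hk1 : r < (k + 1) * (k + 1) := by rw [hk]; exact Nat.lt_succ_sqrt r
  have hk2 : k * k ≤ r := by rw [hk]; exact Nat.sqrt_le r
  have hk3 : k * k < r := by
    refine lt_of_le_of_ne hk2 ?_
    intro h
    have h1 : k ∣ r := ⟨k, h.symm⟩
    rcases (Nat.dvd_prime hr).mp h1 with h2 | h2
    · rw [h2] at h
      rw [← h] at hr
      exact Nat.not_prime_one (by simpa using hr)
    · rw [h2] at h
      have := hr.one_lt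
      nlinarith
  -- pigeonhole
  let s : Finset (ℕ × ℕ) := Finset.range (k + 1) ×ˢ Finset.range (k + 1)
  let f : ℕ × ℕ → ZMod r := fun p => (p.1 : ZMod r) - c * p.2
  have hcard : (Finset.univ : Finset (ZMod r)).card < s.card := by
    simp only [s, Finset.card_product, Finset.card_range, Finset.card_univ, ZMod.card]
    exact hk1
  obtain ⟨p, hp, p', hp', hne, hpp⟩ :=
    Finset.exists_ne_map_eq_of_card_lt_of_maps_to hcard (f := f) (fun _ _ => Finset.mem_coe.mpr (Finset.mem_univ _))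
  obtain ⟨x, hx⟩ : ∃ x : ℤ, x = (p.1 : ℤ) - p'.1 := ⟨_, rfl⟩
  obtain ⟨y, hy⟩ : ∃ y : ℤ, y = (p.2 : ℤ) - p'.2 := ⟨_, rfl⟩
  have hp1 := Finset.mem_product.mp hp
  have hp2 := Finset.mem_product.mp hp'
  have b1 : p.1 ≤ k := Nat.lt_succ_iff.mp (Finset.mem_range.mp hp1.1)
  have b2 : p.2 ≤ k := Nat.lt_succ_iff.mp (Finset.mem_range.mp hp1.2)
  have b3 : p'.1 ≤ k := Nat.lt_succ_iff.mp (Finset.mem_range.mp hp2.1)
  have b4 : p'.2 ≤ k := Nat.lt_succ_iff.mp (Finset.mem_range.mp hp2.2)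
  have hxy : (x : ZMod r) = c * y := by
    have h1 : (p.1 : ZMod r) - c * p.2 = (p'.1 : ZMod r) - c * p'.2 := hpp
    rw [hx, hy]
    push_cast
    linear_combination h1
  have hdvd : ((x * x + 5 * (y * y) : ℤ) : ZMod r) = 0 := by
    push_cast
    rw [hxy]
    linear_combination (y : ZMod r) * (y : ZMod r) * hc
  obtain ⟨t, ht⟩ := (ZMod.intCast_zmod_eq_zero_iff_dvd _ r).mp hdvd
  have hkZ : ((k : ℤ) * k) < r := by exact_mod_cast hk3
  have hxk : x * x ≤ (k : ℤ) * k := by
    have h1 : |x| ≤ k := by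
      rw [hx, abs_le]
      constructor <;> [omega; omega]
    have := abs_mul_abs_self x
    rw [← this]
    exact mul_le_mul h1 h1 (abs_nonneg x) (by positivity)
  have hyk : y * y ≤ (k : ℤ) * k := by
    have h1 : |y| ≤ k := by
      rw [hy, abs_le]
      constructor <;> [omega; omega]
    have := abs_mul_abs_self y
    rw [← this]
    exact mul_le_mul h1 h1 (abs_nonneg y) (by positivity)
  have hpos : 0 < x * x + 5 * (y * y) := by
    by_contra hcon
    have h1 : x * x = 0 := by nlinarith [mul_self_nonneg x, mul_self_nonneg y]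
    have h2 : y * y = 0 := by nlinarith [mul_self_nonneg x, mul_self_nonneg y]
    have h3 : x = 0 := by simpa using h1
    have h4 : y = 0 := by simpa using h2
    apply hne
    ext <;> omega
  have hrpos : (0 : ℤ) < r := by exact_mod_cast hr.pos
  have ht1 : 0 < t := by
    by_contra hcon
    have : t ≤ 0 := not_lt.mp hcon
    nlinarith
  have ht6 : t < 6 := by
    by_contra hcon
    have : 6 ≤ t := not_lt.mp hcon
    nlinarith
  have h4' : (((r : ℕ) : ℤ) : ZMod 4) = 3 := by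
    push_cast
    exact h4
  interval_cases t
  · exact (case1 h4' ht).elim
  · exact ⟨x, y, by rw [ht]; ring⟩
  · exact case3 ht
  · exact (case4 h4' ht).elim
  · exact (case5 h4' ht).elim

end Cfsg.Agent.Lib.Amitsur
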