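import Mathlib

/-!
# Ring identities in a division ring for Amitsur's theorem
-/

set_option autoImplicit false

namespace Cfsg.Agent.Lib.Amitsur

variable {D : Type*} [DivisionRing D] [CharZero D]

omit [CharZero D] in
private theorem sq_eq_of_comm {a i : D} (h : Commute a i) : (a * i) * (a * i) = (a * a) * (i * i) :=
  (h.symm.mul_mul_mul_comm a i)

omit [CharZero D] in
private theorem cross {a b i j : D} (hb : Commute b i) (ha : Commute a j) (hab : Commute a b)
    (hij : i * j = -(j * i)) : (a * i) * (b * j) + (b * j) * (a * i) = 0 := by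
  have h1 : (a * i) * (b * j) = (a * b) * (i * j) := hb.symm.mul_mul_mul_comm a j
  have h2 : (b * j) * (a * i) = (b * a) * (j * i) := ha.symm.mul_mul_mul_comm b i
  rw [h1, h2, hij, ← hab.eq]
  noncomm_ring

private theorem two_ne {z : D} (hz : z + z = 0) : z = 0 := by
  have h2 : (2 : D) * z = 0 := by rw [two_mul]; exact hz
  rcases mul_eq_zero.mp h2 with h | h
  · exact absurd h two_ne_zero
  · exact h

private theorem aux_eps {i j k a b c e : D} (hi : i * i = -1) (hj : j * j = -1)
    (hij : i * j = -(j * i)) (hik : i * k = -(k * i))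
    (hai : Commute a i) (haj : Commute a j) (hbi : Commute b i) (hci : Commute c i)
    (hei : Commute e i) (hej : Commute e j) (he : e ≠ 0)
    (hp : a * i + b * j + c * k = e) : False := by
  have hi0 : i ≠ 0 := by
    rintro rfl
    simp at hi
  have hj0 : j ≠ 0 := by
    rintro rfl
    simp at hj
  have h1 : i * (a * i + b * j + c * k) = (a * i - b * j - c * k) * i := by
    have e1 : i * (a * i) = (a * i) * i := by
      rw [← mul_assoc, ← hai.eq]
    have e2 : i * (b * j) = -((b * j) * i) := by
      rw [← mul_assoc, ← hbi.eq, mul_assoc, hij, mul_assoc]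
      simp
    have e3 : i * (c * k) = -((c * k) * i) := by
      rw [← mul_assoc, ← hci.eq, mul_assoc, hik, mul_assoc]
      simp
    rw [mul_add, mul_add, e1, e2, e3]
    noncomm_ring
  rw [hp, ← hei.eq] at h1
  have h2 : a * i - b * j - c * k = e := (mul_right_cancel₀ hi0 h1).symm
  have h3 : (a * i) + (a * i) = e + e := by
    have h5 : a * i + b * j + c * k + (a * i - b * j - c * k) = (a * i) + (a * i) := by noncomm_ring
    rw [← h5, hp, h2]
  have h4 : a * i = e := by
    have : a * i - e + (a * i - e) = 0 := by
      have : a * i - e + (a * i - e) = (a * i + a * i) - (e + e) := by abel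
      rw [this, h3, sub_self]
    exact sub_eq_zero.mp (two_ne this)
  have h5 : j * (a * i) = -((a * i) * j) := by
    rw [← mul_assoc, ← haj.eq, mul_assoc, mul_assoc, hij]
    have : j * i = -(i * j) := by rw [hij]; simp
    rw [this]
    simp
  rw [h4, ← hej.eq] at h5
  have h6 : e * j + e * j = 0 := by
    nth_rw 1 [h5]
    simp
  have h7 := two_ne h6
  rcases mul_eq_zero.mp h7 with h | h
  · exact he h
  · exact hj0 h

/-- The norm form of the quaternions stays anisotropic in a division ring. -/
theorem no_isotropy {i j a b c : D} (hi : i * i = -1) (hj : j * j = -1) (hij : i * j = -(j * i))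
    (hai : Commute a i) (haj : Commute a j) (hbi : Commute b i) (hbj : Commute b j)
    (hci : Commute c i) (hcj : Commute c j)
    (hab : Commute a b) (hac : Commute a c) (hbc : Commute b c)
    (h : 1 + a * a + b * b + c * c = 0) : False := by
  obtain ⟨k, hk⟩ : ∃ k, k = i * j := ⟨_, rfl⟩
  have hak : Commute a k := hk ▸ hai.mul_right haj
  have hbk : Commute b k := hk ▸ hbi.mul_right hbj
  have hck : Commute c k := hk ▸ hci.mul_right hcj
  have hji : j * i = -(i * j) := by rw [hij]; simp
  have hkk : k * k = -1 := by
    have : k * k = i * (j * i) * j := by simp only [hk, mul_assoc]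
    rw [this, hji]
    simp only [mul_neg, neg_mul]
    have : i * (i * j) * j = (i * i) * (j * j) := by simp only [mul_assoc]
    rw [this, hi, hj]
    simp
  have hik : i * k = -(k * i) := by
    have h1 : i * k = (i * i) * j := by simp only [hk, mul_assoc]
    have h2 : k * i = i * (j * i) := by simp only [hk, mul_assoc]
    rw [h1, h2, hji]
    simp only [mul_neg, neg_neg, mul_assoc]
  have hjk : j * k = -(k * j) := by
    have h1 : j * k = (j * i) * j := by simp only [hk, mul_assoc]
    have h2 : k * j = i * (j * j) := by simp only [hk, mul_assoc]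
    rw [h1, h2, hji]
    simp only [neg_mul, mul_assoc]
  obtain ⟨p, hp⟩ : ∃ p, p = a * i + b * j + c * k := ⟨_, rfl⟩
  have hpp : p * p = -(a * a + b * b + c * c) := by
    have e1 := cross hbi haj hab hij
    have e2 := cross hci hak hac hik
    have e3 := cross hcj hbk hbc hjk
    have s1 := sq_eq_of_comm hai
    have s2 := sq_eq_of_comm hbj
    have s3 := sq_eq_of_comm hck
    rw [hi] at s1
    rw [hj] at s2
    rw [hkk] at s3
    have : p * p = (a * i) * (a * i) + (b * j) * (b * j) + (c * k) * (c * k)
        + ((a * i) * (b * j) + (b * j) * (a * i)) + ((a * i) * (c * k) + (c * k) * (a * i))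
        + ((b * j) * (c * k) + (c * k) * (b * j)) := by
      rw [hp]
      noncomm_ring
    rw [this, e1, e2, e3, s1, s2, s3]
    noncomm_ring
  have hprod : (1 + p) * (1 - p) = 0 := by
    have : (1 + p) * (1 - p) = 1 - p * p := by noncomm_ring
    rw [this, hpp]
    rw [← h]
    noncomm_ring
  rcases mul_eq_zero.mp hprod with h0 | h0
  · have h1 : a * i + b * j + c * k = -1 := by
      rw [← hp]
      exact eq_neg_of_add_eq_zero_right h0
    exact aux_eps hi hj hij hik hai haj hbi hci (by simp [Commute]) (by simp [Commute]) (by simp) h1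
  · have h1 : a * i + b * j + c * k = 1 := by
      rw [← hp]
      exact (sub_eq_zero.mp h0).symm
    exact aux_eps hi hj hij hik hai haj hbi hci (by simp [Commute]) (by simp [Commute]) (by simp) h1

/-- The square root of `5` from the binary icosahedral relations. -/
theorem exists_sqrt_five {i j Y w : D} (hi : i * i = -1) (hj : j * j = -1) (hij : i * j = -(j * i))
    (hw : w * w + w + 1 = 0) (hwi : w * i = j * w) (hiw : (i * w) * (i * w) + i * w + 1 = 0)
    (hY : Y * Y = -1) (hYw : (Y * w) * (Y * w) = -1)
    (hYk : (Y * (i * j)) * (Y * (i * j)) - Y * (i * j) + 1 = 0)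
    (hYi : (Y * i) * (Y * i) * ((Y * i) * (Y * i)) - (Y * i) * (Y * i) * (Y * i)
      + (Y * i) * (Y * i) - Y * i + 1 = 0) :
    ∃ s : D, s = 2 * (Y * i + i * Y) - 1 ∧ s * s = 5 ∧ Commute s i ∧ Commute s j := by
  obtain ⟨k, hk⟩ : ∃ k, k = i * j := ⟨_, rfl⟩
  rw [← hk] at hYk
  have hji : j * i = -(i * j) := by rw [hij]; simp
  have hkk : k * k = -1 := by
    have : k * k = i * (j * i) * j := by simp only [hk, mul_assoc]
    rw [this, hji]
    simp only [mul_neg, neg_mul]
    have : i * (i * j) * j = (i * i) * (j * j) := by simp only [mul_assoc]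
    rw [this, hi, hj]
    simp
  -- `Y k + k Y = 1`
  have hR : Y * k + k * Y = 1 := by
    have h1 : (Y * k) * (k * Y) = 1 := by
      have : (Y * k) * (k * Y) = Y * (k * k) * Y := by simp only [mul_assoc]
      rw [this, hkk]
      simp [hY]
    have h2 := congrArg (· * (k * Y)) hYk
    simp only [add_mul, sub_mul, zero_mul, one_mul] at h2
    rw [mul_assoc (Y * k) (Y * k), h1, mul_one] at h2
    have : Y * k + k * Y - 1 = 0 := by
      rw [← h2]
      noncomm_ring
    exact sub_eq_zero.mp this
  have hw3 : w * w * w = 1 := by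
    have : (w - 1) * (w * w + w + 1) = w * w * w - 1 := by noncomm_ring
    rw [hw, mul_zero] at this
    exact (sub_eq_zero.mp this.symm)
  have hww : w * w = -1 - w := by
    have : w * w = (w * w + w + 1) - 1 - w := by noncomm_ring
    rw [this, hw]
    simp
  -- `Y w + w Y + Y = 0`
  have hE1 : Y * w + w * Y + Y = 0 := by
    have h1 : (Y * w) * (-(w * w) * Y) = 1 := by
      have : (Y * w) * (-(w * w) * Y) = -(Y * (w * w * w) * Y) := by noncomm_ring
      rw [this, hw3, mul_one, hY]
      simp
    have h2 : (Y * w) * ((Y * w) * (-(w * w) * Y)) = Y * w := by rw [h1, mul_one]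
    rw [← mul_assoc, hYw, hww] at h2
    have h3 : -1 * (-(-1 - w) * Y) = -(Y + w * Y) := by noncomm_ring
    rw [h3] at h2
    rw [← h2]
    abel
  -- explicit form of `w`
  have hE2 : (2 : D) * w = -1 + i + j - k := by
    have h1 : (i * w) * (-(w * w) * i) = 1 := by
      have : (i * w) * (-(w * w) * i) = -(i * (w * w * w) * i) := by noncomm_ring
      rw [this, hw3, mul_one, hi]
      simp
    have h2 := congrArg (· * (-(w * w) * i)) hiw
    simp only [add_mul, zero_mul, one_mul] at h2
    rw [mul_assoc (i * w) (i * w), h1, mul_one, hww] at h2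
    have h3 : i * w + j * w + 1 + i = 0 := by
      rw [← h2, ← hwi]
      noncomm_ring
    have h4 : (i + j) * ((i + j) * w) = (-2 : D) * w := by
      have : (i + j) * ((i + j) * w) = (i * i + j * j + (i * j + j * i)) * w := by noncomm_ring
      rw [this, hi, hj, hji]
      noncomm_ring
    have h5 : (i + j) * w = -1 - i := by
      have : (i + j) * w = (i * w + j * w + 1 + i) - 1 - i := by noncomm_ring
      rw [this, h3]
      simp
    rw [h5] at h4
    have h6 : (i + j) * (-1 - i) = - i - i * i - j - j * i := by noncomm_ring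
    rw [h6, hi, hji, ← hk] at h4
    have h7 : (2 : D) * w = -((-2 : D) * w) := by noncomm_ring
    rw [h7, ← h4]
    noncomm_ring
  -- `P + Q = 1`
  have hPQ : (Y * i + i * Y) + (Y * j + j * Y) = 1 := by
    have h1 : Y * ((2 : D) * w) + ((2 : D) * w) * Y + (2 : D) * Y = 0 := by
      have : Y * ((2 : D) * w) = (2 : D) * (Y * w) := by
        have h2 : Y * (2 : D) = (2 : D) * Y := by
          simpa using (Nat.cast_commute 2 Y).eq.symm
        rw [← mul_assoc, ← mul_assoc, h2]
      rw [this]
      have h2 : (2 : D) * (Y * w) + (2 : D) * w * Y + (2 : D) * Y = (2 : D) * (Y * w + w * Y + Y) := by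
        noncomm_ring
      rw [h2, hE1, mul_zero]
    rw [hE2] at h1
    have h2 : Y * (-1 + i + j - k) + (-1 + i + j - k) * Y + (2 : D) * Y
        = (Y * i + i * Y) + (Y * j + j * Y) - (Y * k + k * Y) := by
      noncomm_ring
    rw [h2, hR] at h1
    exact sub_eq_zero.mp h1
  -- `P^2 = P + 1`
  obtain ⟨g, hg⟩ : ∃ g, g = Y * i := ⟨_, rfl⟩
  obtain ⟨h, hh⟩ : ∃ h, h = i * Y := ⟨_, rfl⟩
  rw [← hg] at hYi
  have hgh : g * h = 1 := by
    have : g * h = Y * (i * i) * Y := by simp only [hg, hh, mul_assoc]
    rw [this, hi]
    simp [hY]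
  have hhg : h * g = 1 := by
    have : h * g = i * (Y * Y) * i := by simp only [hg, hh, mul_assoc]
    rw [this, hY]
    simp [hi]
  have hP : (g + h) * (g + h) = (g + h) + 1 := by
    have h1 := congrArg (· * (h * h)) hYi
    simp only [add_mul, sub_mul, zero_mul, one_mul] at h1
    have e1 : g * g * (g * g) * (h * h) = g * g := by
      have : g * g * (g * g) * (h * h) = g * g * (g * (g * h) * h) := by simp only [mul_assoc]
      rw [this, hgh, mul_one, hgh, mul_one]
    have e2 : g * g * g * (h * h) = g := by
      have : g * g * g * (h * h) = g * (g * (g * h) * h) := by simp only [mul_assoc]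
      rw [this, hgh, mul_one, hgh, mul_one]
    have e3 : g * g * (h * h) = 1 := by
      have : g * g * (h * h) = g * (g * h) * h := by simp only [mul_assoc]
      rw [this, hgh, mul_one, hgh]
    have e4 : g * (h * h) = h := by
      rw [← mul_assoc, hgh, one_mul]
    rw [e1, e2, e3, e4] at h1
    have : (g + h) * (g + h) - ((g + h) + 1) = g * g - g + 1 - h + h * h := by
      have h5 : (g + h) * (g + h) = g * g + g * h + h * g + h * h := by noncomm_ring
      rw [h5, hgh, hhg]
      noncomm_ring
    rw [h1] at this
    exact sub_eq_zero.mp this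
  refine ⟨_, rfl, ?_, ?_, ?_⟩
  · rw [← hg, ← hh]
    have h1 : (2 * (g + h) - 1) * (2 * (g + h) - 1) = 4 * ((g + h) * (g + h)) - 4 * (g + h) + 1 := by
      noncomm_ring
    rw [h1, hP]
    noncomm_ring
    norm_num
  · have h1 : Commute (Y * i + i * Y) i := by
      show (Y * i + i * Y) * i = i * (Y * i + i * Y)
      have e1 : (Y * i + i * Y) * i = Y * (i * i) + i * Y * i := by noncomm_ring
      have e2 : i * (Y * i + i * Y) = i * Y * i + (i * i) * Y := by noncomm_ring
      rw [e1, e2, hi]
      noncomm_ring
    have h2 : Commute (2 : D) i := by simpa using Nat.cast_commute 2 i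
    exact (h2.mul_left h1).sub_left (Commute.one_left i)
  · have h1 : Commute (Y * j + j * Y) j := by
      show (Y * j + j * Y) * j = j * (Y * j + j * Y)
      have e1 : (Y * j + j * Y) * j = Y * (j * j) + j * Y * j := by noncomm_ring
      have e2 : j * (Y * j + j * Y) = j * Y * j + (j * j) * Y := by noncomm_ring
      rw [e1, e2, hj]
      noncomm_ring
    have h3 : Y * i + i * Y = 1 - (Y * j + j * Y) := by
      rw [← hPQ]
      noncomm_ring
    rw [h3]
    have h2 : Commute (2 : D) j := by simpa using Nat.cast_commute 2 j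
    exact (h2.mul_left ((Commute.one_left j).sub_left h1)).sub_left (Commute.one_left j)

end Cfsg.Agent.Lib.Amitsur
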