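import Mathlib
import Cfsg.Agent.Lib.Amitsur.Ring
import Cfsg.Agent.Lib.Amitsur.Num
import Cfsg.Agent.Lib.Amitsur.Gauss

/-!
# Nothing of prime order outside `{2, 3, 5}` commutes with the icosians
-/

set_option autoImplicit false

open Polynomial

namespace Cfsg.Agent.Lib.Amitsur

/-- The commutative computation: `-1` is a sum of three squares. -/
theorem exists_isotropic {K : Type*} [CommRing K] [Algebra ℚ K] {ζ s : K} {q : ℕ} (hq : q.Prime)
    (hq20 : q.Coprime 20) (hs : s * s = 5) (hζ : ζ ^ q = 1) (hc : ∀ x, (ζ - 1) * x = 0 → x = 0) :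
    ∃ a b c : K, 1 + a * a + b * b + c * c = 0 := by
  obtain ⟨r, hr, h20, hqr⟩ := exists_prime_aux q hq20 hq.pos
  obtain ⟨n, m, hnm⟩ := exists_two_mul_norm hr h20
  obtain ⟨U, V, hUV⟩ := gauss_poly hr (by omega)
  have hqodd : Odd q := by
    rcases hq.eq_two_or_odd' with h | h
    · subst h
      norm_num at hq20
    · exact h
  obtain ⟨q', hq'⟩ := hqodd
  -- the square root of `ζ`
  obtain ⟨w, hw⟩ : ∃ w, w = ζ ^ (q' + 1) := ⟨_, rfl⟩
  have hww : w * w = ζ := by
    rw [hw, ← pow_add]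
    have : q' + 1 + (q' + 1) = q + 1 := by omega
    rw [this, pow_succ, hζ, one_mul]
  obtain ⟨t, ht⟩ := hqr
  have hr1 : ζ ^ (r + 1) = 1 := by rw [ht, pow_mul, hζ, one_pow]
  obtain ⟨A, hA⟩ : ∃ A, A = aeval ζ U := ⟨_, rfl⟩
  obtain ⟨B, hB⟩ : ∃ B, B = aeval ζ (C (1 / 2 : ℚ) * V) := ⟨_, rfl⟩
  have hT : ∑ j ∈ Finset.range r, ζ ^ j = A * A + 4 * (r : K) * (B * B) := by
    have h1 := congrArg (aeval ζ) hUV
    simp only [map_sum, map_pow, aeval_X, map_add, map_mul, aeval_C] at h1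
    rw [h1, hA, hB]
    simp only [map_mul, aeval_C]
    have h2 : algebraMap ℚ K (r : ℚ) = (r : K) := map_natCast _ _
    have h3 : algebraMap ℚ K (1 / 2) * 2 = 1 := by
      have : (2 : K) = algebraMap ℚ K 2 := (map_ofNat _ 2).symm
      rw [this, ← map_mul]
      norm_num
    rw [h2]
    have h4 : (aeval ζ) V = (algebraMap ℚ K (1 / 2) * 2) * aeval ζ V := by rw [h3, one_mul]
    nth_rw 1 [h4]
    ring
  have hT2 : (∑ j ∈ Finset.range r, ζ ^ j) * ζ = -1 := by
    have h1 := hc ((∑ j ∈ Finset.range r, ζ ^ j) * ζ + 1) (by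
      have h2 : (∑ j ∈ Finset.range r, ζ ^ j) * (ζ - 1) = ζ ^ r - 1 := geom_sum_mul ζ r
      have h3 : (ζ - 1) * ((∑ j ∈ Finset.range r, ζ ^ j) * ζ + 1)
          = ((∑ j ∈ Finset.range r, ζ ^ j) * (ζ - 1)) * ζ + (ζ - 1) := by ring
      rw [h3, h2]
      have h4 : ζ ^ r * ζ = 1 := by rw [← pow_succ, hr1]
      linear_combination h4)
    exact eq_neg_of_add_eq_zero_left h1
  have hs5 : ((n : K) + m * s) * ((n : K) + m * s) + ((n : K) - m * s) * ((n : K) - m * s)
      = 4 * (r : K) := by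
    have h1 : ((n * n + 5 * (m * m) : ℤ) : K) = ((2 * (r : ℤ) : ℤ) : K) := by rw [hnm]
    push_cast at h1
    linear_combination 2 * h1 + 2 * (m : K) * (m : K) * hs
  refine ⟨A * w, ((n : K) + m * s) * (B * w), ((n : K) - m * s) * (B * w), ?_⟩
  have h5 : (A * A + 4 * (r : K) * (B * B)) * (w * w) = -1 := by
    rw [← hT, hww, hT2]
  linear_combination h5 + (B * w) * (B * w) * hs5

/-- In a division ring of characteristic zero nothing of prime order prime to `20` commutes with
a copy of the quaternions whose centralizer contains a square root of `5`. -/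
theorem no_central_root {D : Type*} [DivisionRing D] [CharZero D] {i j s ζ : D} {q : ℕ} (hq : q.Prime)
    (hq20 : q.Coprime 20) (hi : i * i = -1) (hj : j * j = -1) (hij : i * j = -(j * i))
    (hs : s * s = 5) (hsi : Commute s i) (hsj : Commute s j) (hζi : Commute ζ i) (hζj : Commute ζ j)
    (hζs : Commute ζ s) (hζ1 : ζ ≠ 1) (hζq : ζ ^ q = 1) : False := by
  have hcomm : ∀ a ∈ ({ζ, s} : Set D), ∀ b ∈ ({ζ, s} : Set D), a * b = b * a := by
    intro a ha b hb
    rcases ha with rfl | rfl <;> rcases hb with rfl | rfl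
    · rfl
    · exact hζs.eq
    · exact hζs.eq.symm
    · rfl
  letI := Algebra.adjoinCommRingOfComm ℚ hcomm
  obtain ⟨K, hK⟩ : ∃ K, K = Algebra.adjoin ℚ ({ζ, s} : Set D) := ⟨_, rfl⟩
  have hcent : ∀ u : D, Commute ζ u → Commute s u → ∀ z ∈ Algebra.adjoin ℚ ({ζ, s} : Set D), Commute z u := by
    intro u h1 h2 z hz
    have hle : Algebra.adjoin ℚ ({ζ, s} : Set D) ≤ Subalgebra.centralizer ℚ {u} := by
      apply Algebra.adjoin_le
      intro a ha
      rw [SetLike.mem_coe, Subalgebra.mem_centralizer_iff]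
      intro g hg
      rw [Set.mem_singleton_iff] at hg
      subst hg
      rcases ha with rfl | rfl
      · exact h1.eq.symm
      · exact h2.eq.symm
    have h3 := hle hz
    rw [Subalgebra.mem_centralizer_iff] at h3
    exact (h3 u rfl).symm
  let ζ' : Algebra.adjoin ℚ ({ζ, s} : Set D) := ⟨ζ, Algebra.subset_adjoin (by simp)⟩
  let s' : Algebra.adjoin ℚ ({ζ, s} : Set D) := ⟨s, Algebra.subset_adjoin (by simp)⟩
  have h1 : s' * s' = 5 := by
    apply Subtype.ext
    have h5 : ((5 : Algebra.adjoin ℚ ({ζ, s} : Set D)) : D) = 5 :=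
      map_ofNat (Algebra.adjoin ℚ ({ζ, s} : Set D)).val 5
    rw [h5]
    exact hs
  have h2 : ζ' ^ q = 1 := by
    apply Subtype.ext
    simpa using hζq
  have h3 : ∀ x, (ζ' - 1) * x = 0 → x = 0 := by
    intro x hx
    have h4 : (ζ - 1) * (x : D) = 0 := by
      have := congrArg (Subtype.val) hx
      simpa using this
    rcases mul_eq_zero.mp h4 with h5 | h5
    · exact absurd (sub_eq_zero.mp h5) hζ1
    · exact Subtype.ext h5
  obtain ⟨a, b, c, habc⟩ := exists_isotropic hq hq20 h1 h2 h3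
  have hmc : ∀ x y : Algebra.adjoin ℚ ({ζ, s} : Set D), Commute (x : D) (y : D) := by
    intro x y
    have := mul_comm x y
    exact congrArg Subtype.val this
  refine no_isotropy hi hj hij (a := (a : D)) (b := (b : D)) (c := (c : D)) (hcent i hζi hsi _ a.2) (hcent j hζj hsj _ a.2)
    (hcent i hζi hsi _ b.2) (hcent j hζj hsj _ b.2) (hcent i hζi hsi _ c.2) (hcent j hζj hsj _ c.2)
    (hmc a b) (hmc a c) (hmc b c) ?_
  have := congrArg Subtype.val habc
  simpa using this

end Cfsg.Agent.Lib.Amitsur
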