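import Mathlib
import Cfsg.Agent.Lib.Frobenius.Zass.Half

/-!
# Finite subgroups of division rings act fixed point freely on a finite group
-/

set_option autoImplicit false

namespace Cfsg.Agent.Lib.Amitsur

open Cfsg.Agent.Lib.Frobenius.Zass
open scoped Pointwise

variable {D : Type*} [DivisionRing D] (H : Subgroup Dˣ)

/-- The lattice spanned by `H`. -/
def lat : Submodule ℤ D := Submodule.span ℤ (Set.range fun h : H => ((h : Dˣ) : D))

theorem one_mem_lat : (1 : D) ∈ lat H :=
  Submodule.subset_span ⟨1, rfl⟩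

theorem mul_mem_lat (h : H) {x : D} (hx : x ∈ lat H) : ((h : Dˣ) : D) * x ∈ lat H := by
  induction hx using Submodule.span_induction with
  | mem x hx =>
    obtain ⟨g, rfl⟩ := hx
    exact Submodule.subset_span ⟨h * g, rfl⟩
  | zero => simp
  | add x y _ _ hx hy =>
    rw [mul_add]
    exact add_mem hx hy
  | smul a x _ hx =>
    rw [mul_smul_comm]
    exact (lat H).smul_mem a hx

/-- Left multiplication on the lattice. -/
def latL (h : H) : lat H →ₗ[ℤ] lat H where
  toFun x := ⟨((h : Dˣ) : D) * x, mul_mem_lat H h x.2⟩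
  map_add' x y := Subtype.ext (by simp [mul_add])
  map_smul' a x := Subtype.ext (mul_smul_comm a _ _)

@[simp] theorem latL_coe (h : H) (x : lat H) : ((latL H h x : lat H) : D) = ((h : Dˣ) : D) * x := rfl

variable (p : ℤ)

/-- The multiples of `p` in the lattice. -/
abbrev latP : Submodule ℤ (lat H) := p • ⊤

/-- The reduction of the lattice modulo `p`. -/
abbrev latQ : Type _ := lat H ⧸ latP H p

theorem latL_le (h : H) : latP H p ≤ (latP H p).comap (latL H h) := by
  intro x hx
  rw [Submodule.mem_comap]
  rcases (Submodule.mem_smul_pointwise_iff_exists _ _ _).mp hx with ⟨y, -, rfl⟩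
  rw [map_smul]
  exact Submodule.smul_mem_pointwise_smul _ _ _ trivial

/-- The action on the reduction. -/
def latA (h : H) : latQ H p →ₗ[ℤ] latQ H p :=
  Submodule.mapQ _ _ (latL H h) (latL_le H p h)

theorem latA_mk (h : H) (x : lat H) :
    latA H p h (Submodule.Quotient.mk x) = Submodule.Quotient.mk (latL H h x) := rfl

theorem latA_one (x : latQ H p) : latA H p 1 x = x := by
  obtain ⟨y, rfl⟩ := Submodule.Quotient.mk_surjective _ x
  rw [latA_mk]
  congr 1
  apply Subtype.ext
  simp

theorem latA_mul (g h : H) (x : latQ H p) : latA H p (g * h) x = latA H p g (latA H p h x) := by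
  obtain ⟨y, rfl⟩ := Submodule.Quotient.mk_surjective _ x
  rw [latA_mk, latA_mk, latA_mk]
  congr 1
  apply Subtype.ext
  simp [mul_assoc]

/-- The action as a homomorphism to the automorphism group. -/
def latφ : H →* MulAut (Multiplicative (latQ H p)) :=
  MonoidHom.mk' (fun h => AddEquiv.toMultiplicative
    { toFun := latA H p h
      invFun := latA H p h⁻¹
      left_inv := fun x => by rw [← latA_mul, inv_mul_cancel, latA_one]
      right_inv := fun x => by rw [← latA_mul, mul_inv_cancel, latA_one]
      map_add' := map_add _ }) (by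
    intro g h
    ext x
    exact latA_mul H p g h _)

theorem latφ_apply (g : H) (x : Multiplicative (latQ H p)) :
    latφ H p g x = Multiplicative.ofAdd (latA H p g x.toAdd) := rfl

variable [Finite H]

instance : Module.Finite ℤ (lat H) := by
  haveI : Module.Finite ℤ (lat H) := Module.Finite.span_of_finite ℤ (Set.finite_range _)
  infer_instance

theorem finite_latQ (hp : p ≠ 0) : Finite (latQ H p) := by
  haveI : AddGroup.FG (latQ H p) := (Module.Finite.iff_addGroup_fg).mp inferInstance
  apply AddCommGroup.finite_of_fg_torsion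
  intro x
  obtain ⟨y, rfl⟩ := Submodule.Quotient.mk_surjective _ x
  rw [isOfFinAddOrder_iff_zsmul_eq_zero]
  refine ⟨p, hp, ?_⟩
  rw [← Submodule.Quotient.mk_smul, Submodule.Quotient.mk_eq_zero]
  exact Submodule.smul_mem_pointwise_smul _ _ _ trivial

theorem nontrivial_latQ [CharZero D] (hp : ¬ IsUnit p) : Nontrivial (latQ H p) := by
  by_contra hn
  rw [not_nontrivial_iff_subsingleton] at hn
  have h1 : (⊤ : Submodule ℤ (lat H)) ≤ (Ideal.span {p}) • ⊤ := by
    rw [Submodule.ideal_span_singleton_smul]
    intro x _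
    have h2 : (Submodule.Quotient.mk x : latQ H p) = 0 := Subsingleton.elim _ _
    exact (Submodule.Quotient.mk_eq_zero _).mp h2
  obtain ⟨r, hr1, hr2⟩ := Submodule.exists_sub_one_mem_and_smul_eq_zero_of_fg_of_le_smul _ _
    (Module.Finite.fg_top) h1
  have h3 := hr2 ⟨1, one_mem_lat H⟩ trivial
  have h4 : (r : D) = 0 := by
    have := congrArg Subtype.val h3
    simpa using this
  have h5 : r = 0 := by exact_mod_cast h4
  rw [h5, zero_sub, Ideal.neg_mem_iff, Ideal.mem_span_singleton] at hr1
  exact hp (isUnit_of_dvd_one hr1)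

theorem latA_fpf (hcard : IsCoprime p (Nat.card H : ℤ)) (c : H) (hc : c ≠ 1) (x : latQ H p)
    (hx : latA H p c x = x) : x = 0 := by
  classical
  obtain ⟨m, hm⟩ : ∃ m, m = orderOf c := ⟨_, rfl⟩
  have hmd : m ∣ Nat.card H := hm ▸ orderOf_dvd_natCard c
  have hcop : IsCoprime p (m : ℤ) :=
    IsCoprime.of_isCoprime_of_dvd_right hcard (Int.natCast_dvd_natCast.mpr hmd)
  obtain ⟨cD, hcD⟩ : ∃ cD : D, cD = ((c : Dˣ) : D) := ⟨_, rfl⟩
  have hcD1 : cD ≠ 1 := by
    rw [hcD]
    intro h
    apply hc
    apply Subtype.ext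
    apply Units.ext
    simpa using h
  have hpow : cD ^ m = 1 := by
    have h1 : c ^ m = 1 := by rw [hm]; exact pow_orderOf_eq_one c
    have h2 := congrArg (fun z : H => ((z : Dˣ) : D)) h1
    simpa [hcD] using h2
  have hsum : ∑ j ∈ Finset.range m, cD ^ j = 0 := by
    have h1 : (cD - 1) * ∑ j ∈ Finset.range m, cD ^ j = cD ^ m - 1 := mul_geom_sum cD m
    rw [hpow, sub_self] at h1
    rcases mul_eq_zero.mp h1 with h2 | h2
    · exact absurd (sub_eq_zero.mp h2) hcD1
    · exact h2
  have h1 : ∀ j : ℕ, latA H p (c ^ j) x = x := by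
    intro j
    induction j with
    | zero => rw [pow_zero, latA_one]
    | succ j ih => rw [pow_succ, latA_mul, hx, ih]
  obtain ⟨y, rfl⟩ := Submodule.Quotient.mk_surjective _ x
  have h2 : (m : ℤ) • (Submodule.Quotient.mk y : latQ H p) = 0 := by
    have h3 : ∑ j ∈ Finset.range m, latL H (c ^ j) y = 0 := by
      apply Subtype.ext
      rw [AddSubmonoidClass.coe_finset_sum]
      have h4 : ∀ j ∈ Finset.range m, ((latL H (c ^ j) y : lat H) : D) = cD ^ j * (y : D) := by
        intro j _
        rw [latL_coe, hcD]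
        simp
      rw [Finset.sum_congr rfl h4, ← Finset.sum_mul, hsum, zero_mul]
      rfl
    have h5 : ∑ j ∈ Finset.range m, latA H p (c ^ j) (Submodule.Quotient.mk y)
        = (Submodule.Quotient.mk (∑ j ∈ Finset.range m, latL H (c ^ j) y) : latQ H p) := by
      exact (map_sum (latP H p).mkQ (fun j => latL H (c ^ j) y) (Finset.range m)).symm
    rw [h3, Submodule.Quotient.mk_zero] at h5
    rw [Finset.sum_congr rfl (fun j _ => h1 j), Finset.sum_const, Finset.card_range] at h5
    rw [natCast_zsmul]
    exact h5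
  have h3 : p • (Submodule.Quotient.mk y : latQ H p) = 0 := by
    rw [← Submodule.Quotient.mk_smul, Submodule.Quotient.mk_eq_zero]
    exact Submodule.smul_mem_pointwise_smul _ _ _ trivial
  obtain ⟨a, b, hab⟩ := hcop
  calc (Submodule.Quotient.mk y : latQ H p) = (a * p + b * m : ℤ) • (Submodule.Quotient.mk y : latQ H p) := by
        rw [hab, one_smul]
    _ = 0 := by
        rw [add_smul, mul_smul, mul_smul, h2, h3]
        simp

/-- A finite subgroup of a division ring of characteristic zero acts fixed point freely. -/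
theorem fpfAct [CharZero D] : FpfAct H := by
  obtain ⟨p, hp1, hp⟩ := Nat.exists_infinite_primes (Nat.card H + 1)
  have hcard : 0 < Nat.card H := Nat.card_pos
  have hcop : Nat.Coprime p (Nat.card H) :=
    (Nat.Prime.coprime_iff_not_dvd hp).mpr (fun h => by
      have := Nat.le_of_dvd hcard h
      omega)
  have hcop' : IsCoprime (p : ℤ) (Nat.card H : ℤ) := Nat.isCoprime_iff_coprime.mpr hcop
  have hpZ : Prime (p : ℤ) := Nat.prime_iff_prime_int.mp hp
  haveI := finite_latQ H (p : ℤ) hpZ.ne_zero
  haveI := nontrivial_latQ H (p : ℤ) hpZ.not_unit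
  haveI : Finite (Multiplicative (latQ H (p : ℤ))) := inferInstanceAs (Finite (latQ H (p : ℤ)))
  refine FpfAct.of_action (latφ H (p : ℤ)) ?_
  intro c hc n hn
  have h1 : latA H (p : ℤ) c n.toAdd = n.toAdd := by
    have := congrArg Multiplicative.toAdd hn
    exact this
  have h2 := latA_fpf H (p : ℤ) hcop' c hc _ h1
  exact Multiplicative.toAdd.injective h2

end Cfsg.Agent.Lib.Amitsur
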