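import Mathlib

/-!
# The metacyclic group `Z₅ ⋊ Z₈` is not in a division ring
-/

set_option autoImplicit false

namespace Cfsg.Agent.Lib.Amitsur

variable {D : Type*} [DivisionRing D] [CharZero D]

private theorem no_meta_aux {s p q t : D} (hss : s * s = 5) (hpq : Commute p q) (hsp : Commute s p)
    (hsq : Commute s q) (hv : p * p + q * q = -5) (htt : t * t * (t * t) = -1)
    (hts : t * s = -(s * t)) (htp : t * p = q * t) (htq : t * q = -(p * t)) : False := by
  obtain ⟨i, hi⟩ : ∃ i, i = t * t := ⟨_, rfl⟩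
  rw [← hi] at htt
  have hit : i * t = t * i := by rw [hi, mul_assoc]
  have his : i * s = s * i := by
    rw [hi, mul_assoc, hts, mul_neg, ← mul_assoc, hts]
    simp [mul_assoc]
  have hip : i * p = -(p * i) := by
    rw [hi, mul_assoc, htp, ← mul_assoc, htq]
    simp [mul_assoc]
  have hiq : i * q = -(q * i) := by
    rw [hi, mul_assoc, htq, mul_neg, ← mul_assoc, htp]
    simp [mul_assoc]
  obtain ⟨b, hb⟩ : ∃ b, b = t - t * i := ⟨_, rfl⟩
  have hbs : b * s = -(s * b) := by
    rw [hb, sub_mul, mul_sub, hts, mul_assoc, his, ← mul_assoc, hts]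
    simp [mul_assoc]
    abel
  have hbb : b * b = 2 := by
    have e : b * b = t * t - t * (t * i) - (t * i) * t + (t * i) * (t * i) := by
      rw [hb]
      noncomm_ring
    have e1 : t * (t * i) = i * i := by rw [← mul_assoc, hi]
    have e2 : (t * i) * t = i * i := by rw [← hit, mul_assoc, ← hi]
    have e3 : (t * i) * (t * i) = i * (i * i) := by
      rw [← mul_assoc, e2, mul_assoc]
    rw [e, e1, e2, e3, ← hi, htt]
    noncomm_ring
    norm_num
  obtain ⟨v, hv'⟩ : ∃ v, v = p + q * i := ⟨_, rfl⟩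
  have hvs : v * s = s * v := by
    have e1 : (q * i) * s = s * (q * i) := by
      rw [mul_assoc, his, ← mul_assoc, ← hsq.eq, mul_assoc]
    rw [hv', add_mul, mul_add, e1, ← hsp.eq]
  have hvv : v * v = -5 := by
    have e : v * v = p * p + p * (q * i) + (q * i) * p + (q * i) * (q * i) := by
      rw [hv']
      noncomm_ring
    have e1 : (q * i) * p = -(p * (q * i)) := by
      rw [mul_assoc, hip, mul_neg, ← mul_assoc, ← mul_assoc, hpq.eq.symm]
    have e2 : (q * i) * (q * i) = q * q := by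
      have : (q * i) * (q * i) = q * (i * q) * i := by simp only [mul_assoc]
      rw [this, hiq]
      simp only [mul_neg, neg_mul, mul_assoc, htt]
      simp
    rw [e, e1, e2, ← hv]
    abel
  have hvb : v * b = b * v := by
    -- write `b = (1 - i) t`
    have hb' : b = (1 - i) * t := by
      rw [hb, sub_mul, one_mul, hit]
    have htv : t * v = (q - p * i) * t := by
      have e : t * (q * i) = -(p * i) * t := by
        rw [← mul_assoc, htq, neg_mul, mul_assoc, ← hit, neg_mul, mul_assoc]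
      rw [hv', mul_add, htp, e, sub_mul, neg_mul]
      abel
    rw [hb', ← mul_assoc, mul_assoc (1 - i), htv, ← mul_assoc]
    congr 1
    have e1 : v * (1 - i) = p - p * i + q * i - q * (i * i) := by
      rw [hv']
      noncomm_ring
    have e2 : (1 - i) * (q - p * i) = q - p * i - i * q + (i * p) * i := by
      noncomm_ring
    rw [e1, e2, hiq, hip, htt]
    simp only [neg_mul, mul_assoc, htt]
    noncomm_ring
  obtain ⟨u, hu⟩ : ∃ u, u = s + s * b := ⟨_, rfl⟩
  have hsbsb : s * b * s = -(s * s * b) := by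
    rw [mul_assoc, hbs]
    noncomm_ring
  have huu : u * u = -5 := by
    have e : u * u = s * s + s * (s * b) + (s * b) * s + (s * b) * (s * b) := by
      rw [hu]
      noncomm_ring
    have e1 : (s * b) * (s * b) = -(s * s * (b * b)) := by
      rw [← mul_assoc, hsbsb]
      noncomm_ring
    rw [e, e1, hsbsb, hbb, ← mul_assoc, hss]
    noncomm_ring
    norm_num
  have huv : u * v = v * u := by
    have e : (s * b) * v = v * (s * b) := by
      rw [mul_assoc, ← hvb, ← mul_assoc, ← hvs, mul_assoc]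
    rw [hu, add_mul, mul_add, e, hvs]
  have hprod : (u - v) * (u + v) = 0 := by
    have e : (u - v) * (u + v) = u * u + u * v - v * u - v * v := by noncomm_ring
    rw [e, huu, huv, hvv]
    noncomm_ring
  have hdiff : s * u - u * s = 10 * b := by
    rw [hu]
    have e : s * (s + s * b) - (s + s * b) * s = s * s * b - s * b * s := by noncomm_ring
    rw [e, hsbsb, hss]
    noncomm_ring
  have hb0 : b ≠ 0 := by
    intro h0
    rw [h0, zero_mul] at hbb
    norm_num at hbb
  have h10 : (10 : D) * b ≠ 0 := mul_ne_zero (by norm_num) hb0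
  rcases mul_eq_zero.mp hprod with h0 | h0
  · have huv' : u = v := sub_eq_zero.mp h0
    rw [huv', ← hvs, sub_self] at hdiff
    exact h10 hdiff.symm
  · have huv' : u = -v := eq_neg_of_add_eq_zero_left h0
    rw [huv', mul_neg, neg_mul, ← hvs] at hdiff
    simp only [neg_add_cancel, sub_neg_eq_add] at hdiff
    exact h10 hdiff.symm

/-- No element of a division ring acts on a root of `Φ₅` as the square map with fourth power `-1`. -/
theorem no_meta {x t : D} (hx : x ^ 4 + x ^ 3 + x ^ 2 + x + 1 = 0) (htx : t * x = x ^ 2 * t)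
    (ht : t ^ 4 = -1) : False := by
  have hx5 : x ^ 5 = 1 := by
    have : x ^ 5 - 1 = (x - 1) * (x ^ 4 + x ^ 3 + x ^ 2 + x + 1) := by noncomm_ring
    rw [hx, mul_zero] at this
    exact sub_eq_zero.mp this
  have htp : ∀ n : ℕ, t * x ^ n = x ^ (2 * n) * t := by
    intro n
    induction n with
    | zero => simp
    | succ n ih =>
      rw [pow_succ, ← mul_assoc, ih, mul_assoc, htx, ← mul_assoc, ← pow_add]
      ring_nf
  have x6 : x ^ 6 = x := by rw [show 6 = 5 + 1 from rfl, pow_succ, hx5, one_mul]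
  have x8 : x ^ 8 = x ^ 3 := by rw [show 8 = 5 + 3 from rfl, pow_add, hx5, one_mul]
  have hc : ∀ a b : ℕ, Commute (x ^ a) (x ^ b) := fun a b => (Commute.refl x).pow_pow a b
  have t1 : t * x = x ^ 2 * t := htx
  have t2 : t * x ^ 2 = x ^ 4 * t := htp 2
  have t3 : t * x ^ 3 = x * t := by rw [htp 3, show 2 * 3 = 6 from rfl, x6]
  have t4 : t * x ^ 4 = x ^ 3 * t := by rw [htp 4, show 2 * 4 = 8 from rfl, x8]
  have c12 : Commute x (x ^ 2) := (Commute.refl x).pow_right 2
  have c13 : Commute x (x ^ 3) := (Commute.refl x).pow_right 3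
  have c14 : Commute x (x ^ 4) := (Commute.refl x).pow_right 4
  have c23 : Commute (x ^ 4) (x ^ 2) := (Commute.refl x).pow_pow 4 2
  have c24 : Commute (x ^ 4) (x ^ 3) := (Commute.refl x).pow_pow 4 3
  have c25 : Commute (x ^ 2) (x ^ 3) := (Commute.refl x).pow_pow 2 3
  have hp1 : Commute (x - x ^ 4) x := (Commute.refl x).sub_left c14.symm
  have hp2 : Commute (x - x ^ 4) (x ^ 2) := c12.sub_left c23
  have hp3 : Commute (x - x ^ 4) (x ^ 3) := c13.sub_left c24
  have hp4 : Commute (x - x ^ 4) (x ^ 4) := c14.sub_left (Commute.refl _)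
  refine no_meta_aux (s := x + x ^ 4 - x ^ 2 - x ^ 3) (p := x - x ^ 4) (q := x ^ 2 - x ^ 3) (t := t)
    ?_ ?_ ?_ ?_ ?_ ?_ ?_ ?_ ?_
  · have : (x + x ^ 4 - x ^ 2 - x ^ 3) * (x + x ^ 4 - x ^ 2 - x ^ 3) - (1 + 1 + 1 + 1 + 1)
        = (x ^ 4 + x ^ 3 + x ^ 2 + x + 1) *
          (-(1 + 1 + 1 + 1 + 1) + (1 + 1 + 1 + 1 + 1) * x + x ^ 2 - (1 + 1 + 1) * x ^ 3 + x ^ 4) := by
      noncomm_ring
    rw [hx, zero_mul] at this
    rw [sub_eq_zero.mp this]
    norm_num
  · exact hp2.sub_right hp3
  · have h1 : Commute x (x - x ^ 4) := hp1.symm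
    have h2 : Commute (x ^ 2) (x - x ^ 4) := hp2.symm
    have h3 : Commute (x ^ 3) (x - x ^ 4) := hp3.symm
    have h4 : Commute (x ^ 4) (x - x ^ 4) := hp4.symm
    exact ((h1.add_left h4).sub_left h2).sub_left h3
  · have h1 : Commute x (x ^ 2 - x ^ 3) := c12.sub_right c13
    have h2 : Commute (x ^ 2) (x ^ 2 - x ^ 3) := (Commute.refl _).sub_right c25
    have h3 : Commute (x ^ 3) (x ^ 2 - x ^ 3) := c25.symm.sub_right (Commute.refl _)
    have h4 : Commute (x ^ 4) (x ^ 2 - x ^ 3) := c23.sub_right c24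
    exact ((h1.add_left h4).sub_left h2).sub_left h3
  · have : (x - x ^ 4) * (x - x ^ 4) + (x ^ 2 - x ^ 3) * (x ^ 2 - x ^ 3) + (1 + 1 + 1 + 1 + 1)
        = (x ^ 4 + x ^ 3 + x ^ 2 + x + 1) *
          ((1 + 1 + 1 + 1 + 1) - (1 + 1 + 1 + 1 + 1) * x + x ^ 2 - x ^ 3 + x ^ 4) := by
      noncomm_ring
    rw [hx, zero_mul] at this
    rw [eq_neg_of_add_eq_zero_left this]
    norm_num
  · rw [← ht]
    noncomm_ring
  · rw [mul_sub, mul_sub, mul_add, t1, t2, t3, t4]
    noncomm_ring
  · rw [mul_sub, t1, t4, sub_mul]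
  · rw [mul_sub, t2, t3, sub_mul]
    abel

end Cfsg.Agent.Lib.Amitsur
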