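import Mathlib
import Cfsg.Agent.Lib.Amitsur.Ring
import Cfsg.Agent.Lib.Amitsur.Meta
import Cfsg.Agent.Lib.Amitsur.Iso
import Cfsg.Agent.Lib.Amitsur.Lattice

/-!
# Explicit elements of `SL(2, 5)` inside a division ring
-/

set_option autoImplicit false

namespace Cfsg.Agent.Lib.Amitsur

open Matrix Cfsg.Agent.Lib.PSL2.Basic Cfsg.Agent.Lib.Frobenius.Zass
open scoped MatrixGroups

/-- An element of order `3`. -/
def wSL : SL(2, ZMod 5) := sl2 3 2 1 1 (by decide)

/-- An element of order `4` outside the binary tetrahedral group. -/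
def ySL : SL(2, ZMod 5) := sl2 2 0 3 3 (by decide)

/-- A transvection. -/
def xSL : SL(2, ZMod 5) := sl2 1 1 0 1 (by decide)

theorem w_cube : wSL * wSL * wSL = 1 := by decide
theorem w_ne : wSL ≠ 1 := by decide
theorem w_i : wSL * iSL = jSL * wSL := by decide
theorem iw_cube : (iSL * wSL) * (iSL * wSL) * (iSL * wSL) = 1 := by decide
theorem iw_ne : iSL * wSL ≠ 1 := by decide
theorem y_sq : ySL * ySL = -1 := by decide
theorem yw_sq : (ySL * wSL) * (ySL * wSL) = -1 := by decide
theorem yk_cube : (ySL * (iSL * jSL)) * (ySL * (iSL * jSL)) * (ySL * (iSL * jSL)) = -1 := by decide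
theorem yk_ne : ySL * (iSL * jSL) ≠ -1 := by decide
theorem yi_five : (ySL * iSL) * (ySL * iSL) * ((ySL * iSL) * (ySL * iSL)) * (ySL * iSL) = -1 := by decide
theorem yi_ne : ySL * iSL ≠ -1 := by decide
theorem ij_neg : iSL * jSL = (-1) * (jSL * iSL) := by decide
theorem x_five : xSL * xSL * (xSL * xSL) * xSL = 1 := by decide
theorem x_ne : xSL ≠ 1 := by decide
theorem neg_x_sq_five : (-(xSL * xSL)) * (-(xSL * xSL)) * ((-(xSL * xSL)) * (-(xSL * xSL))) * (-(xSL * xSL)) ≠ 1 := by
  decide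

variable {D : Type*} [DivisionRing D] [CharZero D]

/-- A root of `X² + X + 1`. -/
private theorem quad_of_cube {x : D} (h : x * x * x = 1) (h1 : x ≠ 1) : x * x + x + 1 = 0 := by
  have h2 : (x - 1) * (x * x + x + 1) = x * x * x - 1 := by noncomm_ring
  rw [h, sub_self] at h2
  rcases mul_eq_zero.mp h2 with h3 | h3
  · exact absurd (sub_eq_zero.mp h3) h1
  · exact h3

variable (f : SL(2, ZMod 5) →* D) (hf : Function.Injective f) (hz : f (-1) = -1)

include hf hz

/-- The square root of five inside the span of `SL(2, 5)`. -/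
theorem exists_sqrt_five_sl :
    ∃ s : D, s = 2 * (f ySL * f iSL + f iSL * f ySL) - 1 ∧ s * s = 5 ∧ Commute s (f iSL) ∧
      Commute s (f jSL) := by
  have hne : ∀ g h : SL(2, ZMod 5), g ≠ h → f g ≠ f h := fun g h hgh hh => hgh (hf hh)
  have hi : f iSL * f iSL = -1 := by rw [← map_mul, iSL_sq, hz]
  have hj : f jSL * f jSL = -1 := by rw [← map_mul, jSL_sq, hz]
  have hij : f iSL * f jSL = -(f jSL * f iSL) := by
    rw [← map_mul, ij_neg, map_mul, hz, map_mul]
    simp
  have hw : f wSL * f wSL + f wSL + 1 = 0 := by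
    apply quad_of_cube
    · rw [← map_mul, ← map_mul, w_cube, map_one]
    · rw [← map_one f]
      exact hne _ _ w_ne
  have hwi : f wSL * f iSL = f jSL * f wSL := by rw [← map_mul, w_i, map_mul]
  have hiw : (f iSL * f wSL) * (f iSL * f wSL) + f iSL * f wSL + 1 = 0 := by
    rw [← map_mul]
    apply quad_of_cube
    · rw [← map_mul, ← map_mul, iw_cube, map_one]
    · rw [← map_one f]
      exact hne _ _ iw_ne
  have hY : f ySL * f ySL = -1 := by rw [← map_mul, y_sq, hz]
  have hYw : (f ySL * f wSL) * (f ySL * f wSL) = -1 := by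
    rw [← map_mul, ← map_mul, yw_sq, hz]
  have hYk : (f ySL * (f iSL * f jSL)) * (f ySL * (f iSL * f jSL)) - f ySL * (f iSL * f jSL) + 1 = 0 := by
    rw [← map_mul, ← map_mul]
    obtain ⟨x, hx⟩ : ∃ x, x = f (ySL * (iSL * jSL)) := ⟨_, rfl⟩
    rw [← hx]
    have h1 : x * x * x = -1 := by
      rw [hx, ← map_mul, ← map_mul, yk_cube, hz]
    have h2 : x ≠ -1 := by
      rw [hx, ← hz]
      exact hne _ _ yk_ne
    have h3 : (x + 1) * (x * x - x + 1) = x * x * x + 1 := by noncomm_ring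
    rw [h1, neg_add_cancel] at h3
    rcases mul_eq_zero.mp h3 with h4 | h4
    · exact absurd (eq_neg_of_add_eq_zero_left h4) h2
    · exact h4
  have hYi : (f ySL * f iSL) * (f ySL * f iSL) * ((f ySL * f iSL) * (f ySL * f iSL))
      - (f ySL * f iSL) * (f ySL * f iSL) * (f ySL * f iSL)
      + (f ySL * f iSL) * (f ySL * f iSL) - f ySL * f iSL + 1 = 0 := by
    rw [← map_mul]
    obtain ⟨x, hx⟩ : ∃ x, x = f (ySL * iSL) := ⟨_, rfl⟩
    rw [← hx]
    have h1 : x * x * (x * x) * x = -1 := by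
      rw [hx, ← map_mul, ← map_mul, ← map_mul, yi_five, hz]
    have h2 : x ≠ -1 := by
      rw [hx, ← hz]
      exact hne _ _ yi_ne
    have h3 : (x + 1) * (x * x * (x * x) - x * x * x + x * x - x + 1) = x * x * (x * x) * x + 1 := by
      noncomm_ring
    rw [h1, neg_add_cancel] at h3
    rcases mul_eq_zero.mp h3 with h4 | h4
    · exact absurd (eq_neg_of_add_eq_zero_left h4) h2
    · exact h4
  exact exists_sqrt_five hi hj hij hw hwi hiw hY hYw hYk hYi

/-- Nothing of order prime to `20` commutes with `SL(2, 5)`. -/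
theorem no_central_sl {ζ : D} (hζ : ∀ g, Commute ζ (f g)) {q : ℕ} (hq : q.Prime) (hq20 : q.Coprime 20)
    (hζ1 : ζ ≠ 1) (hζq : ζ ^ q = 1) : False := by
  obtain ⟨s, hs, hss, hsi, hsj⟩ := exists_sqrt_five_sl f hf hz
  have hi : f iSL * f iSL = -1 := by rw [← map_mul, iSL_sq, hz]
  have hj : f jSL * f jSL = -1 := by rw [← map_mul, jSL_sq, hz]
  have hij : f iSL * f jSL = -(f jSL * f iSL) := by
    rw [← map_mul, ij_neg, map_mul, hz, map_mul]
    simp
  refine no_central_root hq hq20 hi hj hij hss hsi hsj (hζ _) (hζ _) ?_ hζ1 hζq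
  rw [hs]
  have h2 : Commute ζ (2 : D) := by simpa using (Nat.cast_commute 2 ζ).symm
  exact (h2.mul_right (((hζ _).mul_right (hζ _)).add_right ((hζ _).mul_right (hζ _)))).sub_right (Commute.one_right ζ)

/-- The metacyclic obstruction for `SL(2, 5)`. -/
theorem no_meta_sl {t : D} (ht : t * f xSL = f (xSL * xSL) * t) (ht4 : t ^ 4 = -1) : False := by
  have hx : f xSL ^ 4 + f xSL ^ 3 + f xSL ^ 2 + f xSL + 1 = 0 := by
    obtain ⟨x, hx⟩ : ∃ x, x = f xSL := ⟨_, rfl⟩
    rw [← hx]
    have h1 : x ^ 5 = 1 := by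
      have : x ^ 5 = f (xSL * xSL * (xSL * xSL) * xSL) := by
        simp only [map_mul, ← hx]
        noncomm_ring
      rw [this, x_five, map_one]
    have h2 : x ≠ 1 := by
      rw [hx, ← map_one f]
      exact fun h => x_ne (hf h)
    have h3 : (x - 1) * (x ^ 4 + x ^ 3 + x ^ 2 + x + 1) = x ^ 5 - 1 := by noncomm_ring
    rw [h1, sub_self] at h3
    rcases mul_eq_zero.mp h3 with h4 | h4
    · exact absurd (sub_eq_zero.mp h4) h2
    · exact h4
  refine no_meta hx ?_ ht4
  rw [ht, map_mul, sq]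

end Cfsg.Agent.Lib.Amitsur
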