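import Mathlib
import Cfsg.Agent.Lib.Amitsur.SL
import Cfsg.Agent.Lib.Linalg.AutPSLBasic

/-!
# The outer automorphism of `PSL(2, 5)`
-/

set_option autoImplicit false

namespace Cfsg.Agent.Lib.Amitsur

open Matrix Cfsg.Agent.Lib.PSL2.Basic Cfsg.Agent.Lib.Frobenius.Zass
open Cfsg.Agent.Lib.Linalg.AutPSLBasic (conjSL liftP conjSL_coe liftP_mk)
open scoped MatrixGroups

/-- The diagonal element `diag(2, 1)` of `GL(2, 5)`. -/
def dGL : GL (Fin 2) (ZMod 5) :=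
  ⟨!![2, 0; 0, 1], !![3, 0; 0, 1], by decide, by decide⟩

/-- Conjugation by `diag(2, 1)`. -/
noncomputable def alphaSL : SL(2, ZMod 5) ≃* SL(2, ZMod 5) := conjSL dGL

theorem alpha_coe (A : SL(2, ZMod 5)) :
    ((alphaSL A : SL(2, ZMod 5)) : Matrix (Fin 2) (Fin 2) (ZMod 5))
      = !![2, 0; 0, 1] * (A : Matrix (Fin 2) (Fin 2) (ZMod 5)) * !![3, 0; 0, 1] := rfl

theorem alpha_x : alphaSL xSL = xSL * xSL := by
  apply Subtype.ext
  rw [alpha_coe]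
  decide

/-- The inverse of `iSL`. -/
def iInv : SL(2, ZMod 5) := sl2 3 0 0 2 (by decide)

theorem iInv_eq : iInv = iSL⁻¹ := by decide

theorem alpha_alpha (A : SL(2, ZMod 5)) : alphaSL (alphaSL A) = iSL * A * iSL⁻¹ := by
  apply Subtype.ext
  rw [alpha_coe, alpha_coe, ← iInv_eq]
  show _ = (iSL : Matrix (Fin 2) (Fin 2) (ZMod 5)) * (A : Matrix (Fin 2) (Fin 2) (ZMod 5))
    * (iInv : Matrix (Fin 2) (Fin 2) (ZMod 5))
  have h1 : (!![2, 0; 0, 1] * !![2, 0; 0, 1] : Matrix (Fin 2) (Fin 2) (ZMod 5))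
      = (2 : ZMod 5) • (iSL : Matrix (Fin 2) (Fin 2) (ZMod 5)) := by decide
  have h2 : (!![3, 0; 0, 1] * !![3, 0; 0, 1] : Matrix (Fin 2) (Fin 2) (ZMod 5))
      = (3 : ZMod 5) • (iInv : Matrix (Fin 2) (Fin 2) (ZMod 5)) := by decide
  calc _ = (!![2, 0; 0, 1] * !![2, 0; 0, 1] : Matrix (Fin 2) (Fin 2) (ZMod 5))
        * (A : Matrix (Fin 2) (Fin 2) (ZMod 5)) * (!![3, 0; 0, 1] * !![3, 0; 0, 1]) := by
        simp only [Matrix.mul_assoc]
    _ = _ := by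
      rw [h1, h2, Matrix.smul_mul, Matrix.mul_smul, Matrix.smul_mul, smul_smul]
      have : (3 : ZMod 5) * 2 = 1 := by decide
      rw [this, one_smul]

end Cfsg.Agent.Lib.Amitsur
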