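import Mathlib
import Cfsg.Agent.Lib.Amitsur.Alpha

/-!
# Amitsur's theorem on finite non-solvable subgroups of division rings
-/

set_option autoImplicit false

namespace Cfsg.Agent.Lib.Amitsur

open Matrix Subgroup Cfsg.Agent.Lib.PSL2.Basic Cfsg.Agent.Lib.Frobenius.Zass
open Cfsg.Agent.Lib.Linalg.AutPSLBasic (liftP liftP_mk)
open scoped MatrixGroups

section CharP

variable {D : Type*} [DivisionRing D] (H : Subgroup Dˣ) [Finite H]

/-- The lattice as a subring. -/
def latRing : Subring D where
  carrier := lat H
  mul_mem' := by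
    intro a b ha hb
    rw [SetLike.mem_coe] at ha hb ⊢
    induction ha using Submodule.span_induction with
    | mem x hx =>
      obtain ⟨g, rfl⟩ := hx
      exact mul_mem_lat H g hb
    | zero => simp
    | add x y _ _ hx hy =>
      rw [add_mul]
      exact add_mem hx hy
    | smul c x _ hx =>
      rw [smul_mul_assoc]
      exact (lat H).smul_mem c hx
  one_mem' := one_mem_lat H
  add_mem' := add_mem
  zero_mem' := (lat H).zero_mem
  neg_mem' := by
    intro a ha
    exact (lat H).neg_mem ha

theorem comm_of_char {ℓ : ℕ} [CharP D ℓ] (hℓ : ℓ ≠ 0) (g h : H) : g * h = h * g := by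
  classical
  haveI hfin : Finite (lat H) := by
    haveI : AddGroup.FG (lat H) := (Module.Finite.iff_addGroup_fg).mp inferInstance
    apply AddCommGroup.finite_of_fg_torsion
    intro x
    rw [isOfFinAddOrder_iff_nsmul_eq_zero]
    refine ⟨ℓ, Nat.pos_of_ne_zero hℓ, ?_⟩
    apply Subtype.ext
    simp [nsmul_eq_mul, CharP.cast_eq_zero D ℓ]
  haveI : Finite (latRing H) := hfin
  letI : Fintype (latRing H) := Fintype.ofFinite _
  letI dr : DivisionRing (latRing H) := Fintype.divisionRingOfIsDomain _
  letI fld : Field (latRing H) := littleWedderburn _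
  let g' : latRing H := ⟨((g : Dˣ) : D), Submodule.subset_span ⟨g, rfl⟩⟩
  let h' : latRing H := ⟨((h : Dˣ) : D), Submodule.subset_span ⟨h, rfl⟩⟩
  have h1 : g' * h' = h' * g' := fld.mul_comm g' h'
  have h2 : ((g : Dˣ) : D) * ((h : Dˣ) : D) = ((h : Dˣ) : D) * ((g : Dˣ) : D) := congrArg Subtype.val h1
  apply Subtype.ext
  apply Units.ext
  simpa using h2

end CharP

section Main

variable {D : Type*} [DivisionRing D] [CharZero D] (H : Subgroup Dˣ) [Finite H]

set_option maxHeartbeats 1000000 in
/-- The main argument in characteristic zero. -/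
theorem amitsur_char_zero (hns : ¬ Group.IsSolvable H) :
    Nonempty (H ≃* SL(2, ZMod 5)) := by
  classical
  have hA := fpfAct H
  obtain ⟨S, M, hSn, e, θ, hperf, hM, hdec, hθ, hker, hidx⟩ := exists_struct hA hns
  haveI := hSn
  -- the map to `D`
  let inc : H →* D := (Units.coeHom D).comp H.subtype
  have hinc : Function.Injective inc := fun a b hab => by
    apply Subtype.ext
    apply Units.ext
    exact hab
  let fH : SL(2, ZMod 5) →* H := S.subtype.comp e.symm.toMonoidHom
  have hfH : Function.Injective fH := fun a b hab => by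
    have h1 : e.symm a = e.symm b := Subtype.ext hab
    exact e.symm.injective h1
  have hfHS : ∀ g, fH g ∈ S := fun g => (e.symm g).2
  let f : SL(2, ZMod 5) →* D := inc.comp fH
  have hf : Function.Injective f := hinc.comp hfH
  have hzf : fH (-1) = zOf e := rfl
  have hz : f (-1) = -1 := by
    obtain ⟨y, hy⟩ : ∃ y, y = f (-1) := ⟨_, rfl⟩
    rw [← hy]
    have h1 : y * y = 1 := by
      rw [hy, ← map_mul]
      have : (-1 : SL(2, ZMod 5)) * (-1) = 1 := by decide
      rw [this, map_one]
    have h2 : y ≠ 1 := by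
      rw [hy, ← map_one f]
      exact fun h => neg_one_ne_one_SL (hf h)
    have h3 : (y - 1) * (y + 1) = y * y - 1 := by noncomm_ring
    rw [h1, sub_self] at h3
    rcases mul_eq_zero.mp h3 with h4 | h4
    · exact absurd (sub_eq_zero.mp h4) h2
    · exact eq_neg_of_add_eq_zero_left h4
  -- `M` is trivial
  have hMbot : M = ⊥ := by
    by_contra hne
    haveI : Nontrivial M := by rwa [Subgroup.nontrivial_iff_ne_bot]
    obtain ⟨q, hq, hqd⟩ := Nat.exists_prime_and_dvd (Finite.one_lt_card (α := M)).ne'
    haveI : Fact q.Prime := ⟨hq⟩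
    obtain ⟨a, ha⟩ := exists_prime_orderOf_dvd_card' q hqd
    have hcop := coprime_M hA e hM
    have hq30 : ¬ q ∣ 30 := fun h => by
      have h2 := Nat.eq_one_of_dvd_coprimes hcop hqd h
      exact hq.one_lt.ne' h2
    have hq20 : q.Coprime 20 := by
      rw [Nat.Prime.coprime_iff_not_dvd hq]
      intro h
      have h2 : q ∣ 2 * 2 * 5 := h
      rcases (Nat.Prime.dvd_mul hq).mp h2 with h3 | h3
      · rcases (Nat.Prime.dvd_mul hq).mp h3 with h4 | h4 <;>
          exact hq30 (h4.trans (by norm_num))
      · exact hq30 (h3.trans (by norm_num))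
    have hacent := ((hM a.1).mp a.2).1
    refine no_central_sl f hf hz (ζ := inc a.1) ?_ hq hq20 ?_ ?_
    · intro g
      have h1 := (Subgroup.mem_centralizer_iff.mp hacent) (fH g) (hfHS g)
      have h2 := congrArg inc h1
      rw [map_mul, map_mul] at h2
      exact h2.symm
    · intro h1
      have h2 : a.1 = 1 := hinc (by rw [h1, map_one])
      have h3 : a = 1 := Subtype.ext h2
      rw [h3, orderOf_one] at ha
      exact hq.one_lt.ne ha
    · rw [← map_pow]
      have h1 : a ^ q = 1 := by rw [← ha]; exact pow_orderOf_eq_one a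
      have h2 : a.1 ^ q = 1 := congrArg Subtype.val h1
      rw [h2, map_one]
  -- the centralizer of `S`
  have hC : ∀ a ∈ centralizer (S : Set H), a = 1 ∨ a = zOf e := by
    intro a ha
    obtain ⟨t, ht, y, hy, rfl⟩ := hdec a ha
    rw [hMbot, Subgroup.mem_bot] at hy
    subst hy
    rw [mul_one]
    obtain ⟨k, rfl⟩ := mem_zpowers_iff.mp ht
    rcases Int.even_or_odd' k with ⟨n, rfl | rfl⟩
    · left
      rw [_root_.zpow_mul, zpow_two, zz e, _root_.one_zpow]
    · right
      rw [_root_.zpow_add, _root_.zpow_mul, zpow_two, zz e, _root_.one_zpow, one_mul, zpow_one]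
  have hsup : S ⊔ centralizer (S : Set H) = S := by
    refine sup_eq_left.mpr fun a ha => ?_
    rcases hC a ha with rfl | rfl
    · exact one_mem _
    · exact z_mem e
  rw [hsup] at hidx
  rcases hidx with h1 | h2
  · have h3 : S = ⊤ := Subgroup.index_eq_one.mp h1
    exact ⟨Subgroup.topEquiv.symm.trans ((MulEquiv.subgroupCongr h3.symm).trans e)⟩
  exfalso
  have hcardG : Nat.card H = 240 := by
    have h3 := S.card_mul_index
    rw [card_S e, h2] at h3
    omega
  have hCz : centralizer (S : Set H) = zpowers (zOf e) := by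
    apply le_antisymm
    · intro a ha
      rcases hC a ha with rfl | rfl
      · exact one_mem _
      · exact mem_zpowers _
    · rw [zpowers_le, Subgroup.mem_centralizer_iff]
      intro s _
      exact comm_zOf hA e s
  have hcardC : Nat.card (centralizer (S : Set H)) = 2 := by
    rw [hCz, Nat.card_zpowers, orderOf_zOf e]
  have hsurj : Function.Surjective θ := by
    rw [← MonoidHom.range_eq_top]
    apply Subgroup.eq_top_of_card_eq
    have h3 := θ.ker.card_mul_index
    rw [Subgroup.index_ker, hker, hcardC, hcardG] at h3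
    rw [card_aut_psl25]
    omega
  obtain ⟨t, ht⟩ := hsurj (liftP alphaSL)
  have hθ' : ∀ (g : H) (A : SL(2, ZMod 5)),
      θ g (mkP A) = mkP (e (MulAut.conjNormal g (e.symm A))) := by
    intro g A
    have h3 := hθ g (e.symm A)
    have h4 : piS e (e.symm A) = mkP A := by
      show mkP (e (e.symm A)) = mkP A
      rw [e.apply_symm_apply]
    rw [h4] at h3
    exact h3
  -- the action on the transvection
  have hx : t * fH xSL * t⁻¹ = fH (xSL * xSL) := by
    have h3 := hθ' t xSL
    rw [ht, liftP_mk, alpha_x] at h3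
    obtain ⟨u, hu⟩ : ∃ u, u = e (MulAut.conjNormal t (e.symm xSL)) := ⟨_, rfl⟩
    rw [← hu] at h3
    have hu5 : u * u * (u * u) * u = 1 := by
      rw [hu, ← map_mul, ← map_mul, ← map_mul, ← map_mul, ← map_mul, ← map_mul, ← map_mul, ← map_mul,
        ← map_mul, x_five, map_one, map_one, map_one]
    rcases mkP_eq_iff.mp h3 with h4 | h4
    · have h5 : MulAut.conjNormal t (e.symm xSL) = e.symm (xSL * xSL) := by
        rw [← h4, hu, e.symm_apply_apply]
      have h6 := congrArg Subtype.val h5
      rw [MulAut.conjNormal_apply] at h6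
      exact h6
    · exact (neg_x_sq_five (by rw [← h4]; exact hu5)).elim
  have htt : t * t = fH iSL ∨ t * t = fH iSL * zOf e := by
    have h3 : θ (t * t) = θ (fH iSL) := by
      apply MulEquiv.ext
      intro y
      obtain ⟨A, rfl⟩ := mkP_surjective y
      rw [map_mul, MulAut.mul_apply, ht, liftP_mk, liftP_mk, alpha_alpha, hθ']
      congr 1
      have h4 : MulAut.conjNormal (fH iSL) (e.symm A) = e.symm iSL * e.symm A * (e.symm iSL)⁻¹ := by
        apply Subtype.ext
        rw [MulAut.conjNormal_apply]
        rfl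
      rw [h4, map_mul, map_mul, map_inv, e.apply_symm_apply, e.apply_symm_apply]
    have h4 : (fH iSL)⁻¹ * (t * t) ∈ θ.ker := by
      rw [MonoidHom.mem_ker, map_mul, map_inv, h3, inv_mul_cancel]
    rw [hker] at h4
    rcases hC _ h4 with h5 | h5
    · left
      have h6 := congrArg (fH iSL * ·) h5
      simpa using h6
    · right
      have h6 := congrArg (fH iSL * ·) h5
      simpa using h6
  refine no_meta_sl f hf hz (t := inc t) ?_ ?_
  · have h3 : t * fH xSL = fH (xSL * xSL) * t := by
      rw [← hx]
      group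
    have h4 := congrArg inc h3
    rw [map_mul, map_mul] at h4
    exact h4
  · have hi : f iSL * f iSL = -1 := by rw [← map_mul, iSL_sq, hz]
    have h3 : inc t ^ 4 = inc (t * t) * inc (t * t) := by
      rw [map_mul]
      noncomm_ring
    rw [h3]
    have hinc_z : inc (zOf e) = -1 := hz
    rcases htt with h4 | h4
    · rw [h4]
      exact hi
    · rw [h4, map_mul, hinc_z]
      have h5 : inc (fH iSL) * -1 * (inc (fH iSL) * -1) = f iSL * f iSL := by
        show f iSL * -1 * (f iSL * -1) = f iSL * f iSL
        noncomm_ring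
      rw [h5]
      exact hi

end Main

end Cfsg.Agent.Lib.Amitsur
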